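import Cfsg.Agent.Blocks.FongSwan.Main
import Cfsg.Agent.Blocks.BrauerChar.Reduction

/-!
# Irreducible Brauer characters of `p`-solvable groups are restrictions of characters
-/

set_option autoImplicit false
set_option linter.unusedSectionVars false
set_option linter.style.haveILetI false

namespace CfsgLib.FongSwan

open Cfsg CfsgLib CfsgLib.Blocks CfsgLib.BrauerChar CfsgLib.CharBasics Module

variable {p : ℕ} {M : Ideal AlgInt}

theorem exists_character_lift (hM : IsPModular p M) {G : Type*} [Group G] [Fintype G] (hG : IsPSolvable p G)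
    (φ : IBr hM G) : ∃ η : G → ℂ, IsCharacter G η ∧ ∀ g, ¬ p ∣ orderOf g → η g = (φ : G → ℂ) g := by
  classical
  obtain ⟨n, ρ, hirr, hρ⟩ := φ.2
  haveI := nontrivial_of_irreducible hirr
  have hsub : ∀ W : Submodule (RF hM) (Fin n → RF hM), (∀ g, W ≤ W.comap (ρ g)) → W = ⊥ ∨ W = ⊤ := fun W hW => by
    haveI := hirr
    rcases eq_bot_or_eq_top (α := Subrepresentation ρ) ⟨W, fun g v hv => hW g hv⟩ with h | h
    · exact Or.inl (congrArg Subrepresentation.toSubmodule h)
    · exact Or.inr (congrArg Subrepresentation.toSubmodule h)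
  obtain ⟨m, A, e, he⟩ := liftable_of_isPSolvable hM hG ρ hsub Module.finrank_pos.ne'
  let ρC : Representation ℂ G (Fin m → ℂ) := toRep ((plc hM).subtype.mapMatrix.toMonoidHom.comp A)
  refine ⟨ρC.character, ⟨m, ρC, rfl⟩, fun g hg => ?_⟩
  have hA : ∀ g, (A g).map (plc hM).subtype =
      LinearMap.toMatrix (Pi.basisFun ℂ (Fin m)) (Pi.basisFun ℂ (Fin m)) (ρC g) := fun g => by
    rw [LinearMap.toMatrix_eq_toMatrix', toRep_apply, LinearMap.toMatrix'_toLin']
    rfl
  rw [hρ, bc_equiv (ρ := toRep (red hM A)) ρ e he]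
  exact (bc_reduceRep hM hA hg).symm

end CfsgLib.FongSwan
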