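import Cfsg.Agent.Blocks.FongSwan.Units

/-!
# Descent of lifts along surjections with kernel of order prime to `p`
-/

set_option autoImplicit false
set_option linter.unusedSectionVars false
set_option linter.style.haveILetI false

namespace CfsgLib.FongSwan

open Cfsg CfsgLib CfsgLib.Blocks CfsgLib.BrauerChar Module

variable {p : ℕ} {M : Ideal AlgInt} {hM : IsPModular p M} {G H : Type*} [Group G] [Group H]
  {V : Type*} [AddCommGroup V] [Module (RF hM) V]

theorem matrix_eq_one_of_red {ι : Type*} [Fintype ι] [DecidableEq ι] {X : Matrix ι ι (plc hM)} {N : ℕ}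
    (hN : ¬ p ∣ N) (hX : X ^ N = 1) (h : (res hM).mapMatrix X = 1) : X = 1 := by
  set Y := ∑ i ∈ Finset.range N, X ^ i with hY
  have h0 : Y * (X - 1) = 0 := by rw [hY, geom_sum_mul, hX, sub_self]
  have hu : IsUnit Y := by
    rw [Matrix.isUnit_iff_isUnit_det, ← IsLocalRing.residue_ne_zero_iff_isUnit]
    show res hM Y.det ≠ 0
    rw [RingHom.map_det, hY, map_sum]
    simp only [map_pow, h, one_pow, Finset.sum_const, Finset.card_range, nsmul_one]
    rw [← Matrix.diagonal_natCast, Matrix.det_diagonal, Finset.prod_const]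
    exact pow_ne_zero _ (natCast_ne_zero hM hN)
  exact sub_eq_zero.1 (hu.mul_right_eq_zero.1 h0)

/-- A lift of the inflation to an extension by a `p'`-group gives a lift. -/
theorem liftable_descend {σ : Representation (RF hM) G V} (π : H →* G) (hπ : Function.Surjective π)
    (hk : ∀ x ∈ π.ker, ∃ N : ℕ, ¬ p ∣ N ∧ x ^ N = 1) (h : Liftable hM (σ.comp π)) : Liftable hM σ := by
  obtain ⟨n, A, e, he⟩ := h
  have hker : π.ker ≤ A.toHomUnits.ker := fun x hx => by
    obtain ⟨N, hN, hxN⟩ := hk x hx
    refine Units.ext (matrix_eq_one_of_red hN ?_ ?_)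
    · rw [MonoidHom.coe_toHomUnits, ← map_pow, hxN, map_one]
    · have h1 := he x
      rw [MonoidHom.comp_apply, MonoidHom.mem_ker.1 hx, map_one] at h1
      have h2 : toRep (red hM A) x = 1 := e.conj.injective (h1.symm.trans (by
        rw [Module.End.one_eq_id, Module.End.one_eq_id, LinearEquiv.conj_id]))
      exact Matrix.toLin'.injective (h2.trans (by rw [Matrix.toLin'_one]; rfl))
  let f := π.liftOfSurjective hπ ⟨A.toHomUnits, hker⟩
  refine ⟨n, (Units.coeHom _).comp f, e, fun g => ?_⟩
  obtain ⟨x, rfl⟩ := hπ g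
  have hf : f (π x) = A.toHomUnits x := MonoidHom.liftOfRightInverse_comp_apply _ _ _ _ x
  rw [← MonoidHom.comp_apply, he x, toRep_apply, toRep_apply]
  congr 2
  show (res hM).mapMatrix (A x) = (res hM).mapMatrix ((f (π x) : (Matrix (Fin n) (Fin n) (plc hM))ˣ) : Matrix (Fin n) (Fin n) (plc hM))
  rw [hf, MonoidHom.coe_toHomUnits]

end CfsgLib.FongSwan
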