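import Cfsg.Agent.Blocks.FongSwan.Character
import Cfsg.Agent.Blocks.SumSqDegree

/-!
# Degree-weighted sums vanishing on singular elements in `p`-solvable groups
-/

set_option autoImplicit false
set_option linter.unusedSectionVars false
set_option linter.style.haveILetI false

namespace CfsgLib.FongSwan

open Cfsg CfsgLib CfsgLib.Blocks CfsgLib.BrauerChar CfsgLib.CharBasics
open scoped ComplexConjugate

variable {p : ℕ} {M : Ideal AlgInt} {G : Type*} [Group G] [Fintype G] [Fintype (IrrCharacter G)]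

theorem exists_regular_set (hM : IsPModular p M) (hG : IsPSolvable p G) (U : Set (IrrCharacter G))
    [DecidablePred (· ∈ U)]
    (hU : ∀ x : G, p ∣ orderOf x → ∑ χ : IrrCharacter G, (if χ ∈ U then (χ : G → ℂ) 1 * (χ : G → ℂ) x else 0) = 0) :
    ∃ S : Set (IBr hM G), ∀ χ : IrrCharacter G, ∀ φ, dec hM χ φ ≠ 0 → (χ ∈ U ↔ φ ∈ S) := by
  classical
  choose η hηc hη using fun φ : IBr hM G => exists_character_lift hM hG φ
  choose k hk using fun φ (χ : IrrCharacter G) => classInner_character_nat (hηc φ) χ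
  set d : IrrCharacter G → ℕ := fun χ => charDegree (χ : G → ℂ) with hd
  have hd1 : ∀ χ : IrrCharacter G, (χ : G → ℂ) 1 = d χ := fun χ => apply_one (isCharacter_of_irr χ.2)
  have hreg1 : ¬ p ∣ orderOf (1 : G) := by rw [orderOf_one]; exact hM.1.not_dvd_one
  set b : IBr hM G → ℕ := fun φ => ∑ χ : IrrCharacter G, if χ ∈ U then k φ χ * d χ else 0 with hb
  set t : IBr hM G → ℕ := fun φ => ∑ χ : IrrCharacter G, k φ χ * d χ with ht
  have hbt : ∀ φ, b φ ≤ t φ := fun φ => Finset.sum_le_sum fun χ _ => by split_ifs <;> simp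
  have ht1 : ∀ φ : IBr hM G, (φ : G → ℂ) 1 = t φ := fun φ => by
    rw [← hη φ 1 hreg1, classFun_expand (CharBasics.isClassFunction (hηc φ)), Finset.sum_apply, ht]
    push_cast
    exact Finset.sum_congr rfl fun χ _ => by rw [Pi.smul_apply, smul_eq_mul, hk, hd1]
  have hdeg : ∀ χ : IrrCharacter G, d χ = ∑ φ : IBr hM G, dec hM χ φ * t φ := fun χ => by
    refine Nat.cast_injective (R := ℂ) ?_
    push_cast
    rw [← hd1, apply_eq_sum_dec hM χ hreg1]
    simp only [ht1]
  set θ : G → ℂ := fun x => ∑ χ : IrrCharacter G, if χ ∈ U then (χ : G → ℂ) 1 * (χ : G → ℂ) x else 0 with hθ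
  have hinner : ∀ f : G → ℂ, ∑ y : G, f y * conj (θ y) =
      ∑ χ : IrrCharacter G, if χ ∈ U then (d χ : ℂ) * (Nat.card G * classInner f (χ : G → ℂ)) else 0 := fun f => by
    simp only [hθ, map_sum, Finset.mul_sum]
    rw [Finset.sum_comm]
    refine Finset.sum_congr rfl fun χ _ => ?_
    split_ifs
    · rw [classInner, mul_inv_cancel_left₀ (Nat.cast_ne_zero.2 Nat.card_pos.ne'), Finset.mul_sum]
      refine Finset.sum_congr rfl fun y _ => ?_
      rw [map_mul, hd1, Complex.conj_natCast]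
      ring
    · simp
  have hphi : ∀ φ : IBr hM G, ∑ y : G, (φ : G → ℂ) y * conj (θ y) = (Nat.card G : ℂ) * b φ := fun φ => by
    have h1 : ∑ y : G, (φ : G → ℂ) y * conj (θ y) = ∑ y : G, η φ y * conj (θ y) :=
      Finset.sum_congr rfl fun y _ => by
        by_cases hy : p ∣ orderOf y
        · rw [show θ y = 0 from hU y hy, map_zero, mul_zero, mul_zero]
        · rw [hη φ y hy]
    rw [h1, hinner, hb]
    push_cast
    rw [Finset.mul_sum]
    refine Finset.sum_congr rfl fun χ _ => ?_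
    split_ifs
    · rw [hk]; ring
    · simp
  have heq : ∀ χ : IrrCharacter G, (if χ ∈ U then d χ else 0) = ∑ φ : IBr hM G, dec hM χ φ * b φ := fun χ => by
    refine Nat.cast_injective (R := ℂ) ?_
    push_cast
    refine mul_left_cancel₀ (Nat.cast_ne_zero.2 (Nat.card_pos (α := G)).ne' : (Nat.card G : ℂ) ≠ 0) ?_
    calc (Nat.card G : ℂ) * (if χ ∈ U then (d χ : ℂ) else 0) = ∑ y : G, (χ : G → ℂ) y * conj (θ y) := by
          rw [hinner, Finset.sum_eq_single χ (fun χ' _ hne => by
            rw [classInner_irr, if_neg (Ne.symm hne), mul_zero, mul_zero, ite_self]) (fun h => absurd (Finset.mem_univ χ) h),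
            classInner_irr, if_pos rfl]
          split_ifs <;> ring
      _ = ∑ y : G, ∑ φ : IBr hM G, (dec hM χ φ : ℂ) * ((φ : G → ℂ) y * conj (θ y)) :=
          Finset.sum_congr rfl fun y _ => by
            by_cases hy : p ∣ orderOf y
            · rw [show θ y = 0 from hU y hy]; simp
            · rw [apply_eq_sum_dec hM χ hy, Finset.sum_mul]
              exact Finset.sum_congr rfl fun φ _ => mul_assoc _ _ _
      _ = _ := by
          rw [Finset.sum_comm, Finset.mul_sum]
          exact Finset.sum_congr rfl fun φ _ => by rw [← Finset.mul_sum, hphi]; ring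
  refine ⟨{φ | b φ ≠ 0}, fun χ φ hφ => ⟨fun hχ => ?_, fun hφS => ?_⟩⟩
  · have h1 := heq χ
    rw [if_pos hχ, hdeg χ] at h1
    have h2 := (Finset.sum_eq_sum_iff_of_le fun ψ _ => Nat.mul_le_mul_left (dec hM χ ψ) (hbt ψ)).1 h1.symm φ
      (Finset.mem_univ φ)
    obtain ⟨m, hm, hm1⟩ := iBr_one_pos hM φ
    rw [ht1, Nat.cast_inj] at hm1
    intro hb0
    rw [Nat.eq_of_mul_eq_mul_left (Nat.pos_of_ne_zero hφ) h2] at hb0
    omega
  · by_contra hχ
    have h1 := heq χ
    rw [if_neg hχ, eq_comm, Finset.sum_eq_zero_iff] at h1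
    exact (mul_ne_zero hφ hφS) (h1 φ (Finset.mem_univ φ))

/-- Harada's statement for `p`-solvable groups. -/
theorem blockCoeff_mem (hM : IsPModular p M) (hG : IsPSolvable p G) (U : Set (IrrCharacter G))
    (hU : ∀ x : G, p ∣ orderOf x → ∑ᶠ χ ∈ U, (χ : G → ℂ) 1 * (χ : G → ℂ) x = 0) (g : G) :
    MemLocalRing M (blockCoeff U g) := by
  classical
  have hU' : ∀ x : G, p ∣ orderOf x →
      ∑ χ : IrrCharacter G, (if χ ∈ U then (χ : G → ℂ) 1 * (χ : G → ℂ) x else 0) = 0 := fun x hx => by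
    refine Eq.trans ?_ (hU x hx)
    rw [finsum_mem_def, finsum_eq_sum_of_fintype]
    exact Finset.sum_congr rfl fun χ _ => by rw [Set.indicator_apply]
  have hconj : ∀ x : G, blockCoeff U x = (Nat.card G : ℂ)⁻¹ *
      conj (∑ χ : IrrCharacter G, (if χ ∈ U then (χ : G → ℂ) 1 * (χ : G → ℂ) x else 0)) := fun x => by
    rw [blockCoeff_eq, map_sum]
    congr 1
    refine Finset.sum_congr rfl fun χ _ => ?_
    split_ifs
    · rw [map_mul, apply_one (isCharacter_of_irr χ.2), Complex.conj_natCast]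
    · simp
  rw [hconj]
  by_cases hg : p ∣ orderOf g
  · rw [hU' g hg, map_zero, mul_zero]
    simpa using memLocalRing_natCast hM 0
  obtain ⟨S, hS⟩ := exists_regular_set hM hG U hU'
  have hexp : ∑ χ : IrrCharacter G, (if χ ∈ U then (χ : G → ℂ) 1 * (χ : G → ℂ) g else 0) =
      ∑ φ : IBr hM G, if φ ∈ S then Phi hM φ 1 * (φ : G → ℂ) g else 0 := by
    have h1 : ∀ χ : IrrCharacter G, (if χ ∈ U then (χ : G → ℂ) 1 * (χ : G → ℂ) g else 0) =
        ∑ φ : IBr hM G, if φ ∈ S then (dec hM χ φ : ℂ) * (χ : G → ℂ) 1 * (φ : G → ℂ) g else 0 := fun χ => by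
      calc _ = ∑ φ : IBr hM G, if χ ∈ U then (dec hM χ φ : ℂ) * (χ : G → ℂ) 1 * (φ : G → ℂ) g else 0 := by
            split_ifs
            · rw [apply_eq_sum_dec hM χ hg, Finset.mul_sum]
              exact Finset.sum_congr rfl fun φ _ => by ring
            · simp
        _ = _ := Finset.sum_congr rfl fun φ _ => by
            by_cases hd : dec hM χ φ = 0
            · simp [hd]
            · simp only [hS χ φ hd]
    rw [Finset.sum_congr rfl fun χ _ => h1 χ, Finset.sum_comm]
    refine Finset.sum_congr rfl fun φ _ => ?_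
    split_ifs
    · rw [Phi, Finset.sum_mul]
    · simp
  rw [hexp, map_sum, Finset.mul_sum]
  refine memLocalRing_sum hM _ fun φ _ => ?_
  split_ifs
  · obtain ⟨c, hc⟩ := pow_dvd_degree_of_vanish hM.1 (fun χ => (dec hM χ φ : ℤ)) fun x hx => by
      push_cast
      exact Phi_singular hM φ hx
    have hPhi : Phi hM φ 1 = ((p ^ (Nat.card G).factorization p : ℕ) : ℂ) * (c : ℂ) := by
      have := congrArg (fun z : ℤ => (z : ℂ)) hc
      push_cast at this ⊢
      rw [← this, Phi]
      exact Finset.sum_congr rfl fun χ _ => by rw [apply_one (isCharacter_of_irr χ.2)]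
    set a := (Nat.card G).factorization p
    have hG0 : (Nat.card G : ℂ) = ((p ^ a : ℕ) : ℂ) * ((Nat.card G / p ^ a : ℕ) : ℂ) := by
      rw [← Nat.cast_mul, Nat.ordProj_mul_ordCompl_eq_self]
    have hpa : ((p ^ a : ℕ) : ℂ) ≠ 0 := Nat.cast_ne_zero.2 (pow_ne_zero _ hM.1.ne_zero)
    have : (Nat.card G : ℂ)⁻¹ * conj (Phi hM φ 1 * (φ : G → ℂ) g) =
        ((c : ℂ) * conj ((φ : G → ℂ) g)) * ((Nat.card G / p ^ a : ℕ) : ℂ)⁻¹ := by
      rw [hPhi, map_mul, map_mul, Complex.conj_natCast, map_intCast, hG0, mul_inv]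
      field_simp
    rw [this]
    refine memLocalRing_mul hM (memLocalRing_mul hM (memLocalRing_of_isIntegral hM ?_)
      (memLocalRing_of_isIntegral hM ?_)) (memLocalRing_natCast_inv hM (Nat.not_dvd_ordCompl hM.1 Nat.card_pos.ne'))
    · exact (isIntegral_algebraMap (R := ℤ) (A := ℂ) (x := c))
    · exact (iBr_isIntegral hM φ g).map (starRingEnd ℂ).toIntAlgHom
  · simpa using memLocalRing_natCast hM 0

end CfsgLib.FongSwan
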