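import Cfsg.Agent.Blocks.FongSwan.Units

/-!
# Representations induced from the stabilizer of a constituent
-/

set_option autoImplicit false
set_option linter.unusedSectionVars false
set_option linter.style.haveILetI false

namespace CfsgLib.FongSwan

open Cfsg CfsgLib CfsgLib.Blocks CfsgLib.BrauerChar Module

section IndMat

variable {R : Type*} [CommRing R] {G : Type*} [Group G] {S : Subgroup G} {ι : Type*} [Fintype ι] [DecidableEq ι]

theorem out_mem_iff (g : G) (i j : G ⧸ S) : i.out⁻¹ * g * j.out ∈ S ↔ i = g • j := by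
  constructor
  · intro h
    rw [← QuotientGroup.out_eq' i]
    conv_rhs => rw [← QuotientGroup.out_eq' j]
    show (QuotientGroup.mk i.out : G ⧸ S) = QuotientGroup.mk (g * j.out)
    rw [QuotientGroup.eq, ← mul_assoc]
    exact h
  · rintro rfl
    have : (QuotientGroup.mk (g • j : G ⧸ S).out : G ⧸ S) = QuotientGroup.mk (g * j.out) := by
      rw [QuotientGroup.out_eq']
      conv_lhs => rw [← QuotientGroup.out_eq' j]
      rfl
    rw [QuotientGroup.eq, ← mul_assoc] at this
    exact this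

open scoped Classical in
/-- The block monomial matrix of an induced representation. -/
noncomputable def indFun (A : S →* Matrix ι ι R) (g : G) : Matrix ((G ⧸ S) × ι) ((G ⧸ S) × ι) R :=
  Matrix.of fun x y => if h : x.1.out⁻¹ * g * y.1.out ∈ S then A ⟨_, h⟩ x.2 y.2 else 0

variable [Fintype (G ⧸ S)] [DecidableEq (G ⧸ S)]

theorem indFun_one (A : S →* Matrix ι ι R) : indFun A 1 = 1 := by
  classical
  ext ⟨i, a⟩ ⟨j, b⟩
  simp only [indFun, Matrix.of_apply, Matrix.one_apply, Prod.mk.injEq]
  by_cases h : i = j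
  · subst h
    rw [dif_pos (by rw [out_mem_iff, one_smul])]
    rw [show (⟨i.out⁻¹ * 1 * i.out, _⟩ : S) = 1 from Subtype.ext (by simp), map_one, Matrix.one_apply]
    simp
  · rw [dif_neg (by rw [out_mem_iff, one_smul]; exact h)]
    simp [h]

theorem indFun_mul (A : S →* Matrix ι ι R) (g g' : G) : indFun A (g * g') = indFun A g * indFun A g' := by
  classical
  ext ⟨i, a⟩ ⟨l, b⟩
  rw [Matrix.mul_apply, Fintype.sum_prod_type, Finset.sum_eq_single (g' • l)
    (fun j _ hj => Finset.sum_eq_zero fun r _ => by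
      simp only [indFun, Matrix.of_apply]
      rw [dif_neg (c := j.out⁻¹ * g' * l.out ∈ S) (by rw [out_mem_iff]; exact hj), mul_zero])
    (fun h => absurd (Finset.mem_univ _) h)]
  simp only [indFun, Matrix.of_apply]
  have h2 : (g' • l).out⁻¹ * g' * l.out ∈ S := by rw [out_mem_iff]
  by_cases h : i = (g * g') • l
  · have h1 : i.out⁻¹ * g * (g' • l).out ∈ S := by rw [out_mem_iff, ← mul_smul]; exact h
    simp only [dif_pos h1, dif_pos h2, dif_pos ((out_mem_iff _ _ _).2 h)]
    rw [show (⟨i.out⁻¹ * (g * g') * l.out, (out_mem_iff _ _ _).2 h⟩ : S) = ⟨_, h1⟩ * ⟨_, h2⟩ from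
      Subtype.ext (by push_cast; group), map_mul, Matrix.mul_apply]
  · have h1 : ¬ i.out⁻¹ * g * (g' • l).out ∈ S := by rw [out_mem_iff, ← mul_smul]; exact h
    rw [dif_neg ((out_mem_iff _ _ _).not.2 h)]
    simp [h1]

/-- The induced matrix representation. -/
noncomputable def indMat (A : S →* Matrix ι ι R) : G →* Matrix ((G ⧸ S) × ι) ((G ⧸ S) × ι) R where
  toFun := indFun A
  map_one' := indFun_one A
  map_mul' := indFun_mul A

theorem indMat_map {R' : Type*} [CommRing R'] (f : R →+* R') (A : S →* Matrix ι ι R) (g : G) :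
    (indMat A g).map f = indMat (f.mapMatrix.toMonoidHom.comp A) g := by
  classical
  ext x y
  simp only [indMat, indFun, MonoidHom.coe_mk, OneHom.coe_mk, Matrix.map_apply, Matrix.of_apply]
  split_ifs <;> simp

end IndMat

variable {p : ℕ} {M : Ideal AlgInt} {hM : IsPModular p M} {G : Type*} [Group G] [Fintype G]
  {V : Type*} [AddCommGroup V] [Module (RF hM) V] [Module.Finite (RF hM) V]
  {K : Subgroup G} [K.Normal] [Fintype K] {ι : Type*} [Fintype ι] [DecidableEq ι]
  {A : K →* Matrix ι ι (RF hM)} {c : RF hM}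

theorem schur_comp (hA : Schur A c) (f : K ≃* K) : Schur (A.comp f.toMonoidHom) c := by
  intro a b b' d
  rw [← hA a b b' d]
  refine Fintype.sum_equiv f.toEquiv _ _ fun y => ?_
  simp

theorem conj_idem (σ : Representation (RF hM) G V) (g : G) :
    σ g * idem A c (σ.comp K.subtype) * σ g⁻¹ =
      idem (A.comp (MulAut.conjNormal g⁻¹ : K ≃* K).toMonoidHom) c (σ.comp K.subtype) := by
  rw [idem_eq_trace, idem_eq_trace, mul_smul_comm, smul_mul_assoc, Finset.mul_sum, Finset.sum_mul]
  congr 1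
  refine Fintype.sum_equiv (MulAut.conjNormal g : K ≃* K).toEquiv _ _ fun y => ?_
  rw [mul_smul_comm, smul_mul_assoc]
  congr 1
  · show _ = Matrix.trace (A ((MulAut.conjNormal g⁻¹ : K ≃* K) ((MulAut.conjNormal g : K ≃* K) y)⁻¹))
    refine congrArg (fun z => Matrix.trace (A z)) (Subtype.ext ?_)
    simp [MulAut.conjNormal_apply, mul_assoc]
  · show σ g * σ (y : G) * σ g⁻¹ = σ ((MulAut.conjNormal g y : K) : G)
    rw [← map_mul, ← map_mul, MulAut.conjNormal_apply]

/-- The stabilizer of the idempotent. -/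
def stab (σ : Representation (RF hM) G V) (A : K →* Matrix ι ι (RF hM)) (c : RF hM) : Subgroup G where
  carrier := {g | Commute (σ g) (idem A c (σ.comp K.subtype))}
  one_mem' := by simp
  mul_mem' := fun {a b} ha hb => by
    show Commute (σ (a * b)) _
    rw [map_mul]; exact ha.mul_left hb
  inv_mem' := fun {a} ha => by
    show Commute (σ a⁻¹) _
    have h1 : σ a⁻¹ * σ a = 1 := by rw [← map_mul, inv_mul_cancel, map_one]
    have h2 : σ a * σ a⁻¹ = 1 := by rw [← map_mul, mul_inv_cancel, map_one]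
    calc σ a⁻¹ * idem A c (σ.comp K.subtype)
        = σ a⁻¹ * (idem A c (σ.comp K.subtype) * σ a) * σ a⁻¹ := by
          rw [mul_assoc, mul_assoc, h2, mul_one]
      _ = σ a⁻¹ * (σ a * idem A c (σ.comp K.subtype)) * σ a⁻¹ := by rw [ha.eq]
      _ = idem A c (σ.comp K.subtype) * σ a⁻¹ := by rw [← mul_assoc, h1, one_mul]

theorem mem_stab_of_mem (σ : Representation (RF hM) G V) {g : G} (hg : g ∈ K) : g ∈ stab σ A c :=
  sigma_idem (σ.comp K.subtype) ⟨g, hg⟩

theorem idem_mul_eq_zero (hA : Schur A c) (hc : c ≠ 0) (σ : Representation (RF hM) G V) {h : G}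
    (hh : h ∉ stab σ A c) (v : V) :
    idem A c (σ.comp K.subtype) (σ h (idem A c (σ.comp K.subtype) v)) = 0 := by
  have h0 : σ h⁻¹ * idem A c (σ.comp K.subtype) * σ h * idem A c (σ.comp K.subtype) = 0 := by
    by_contra hne
    refine hh ((stab σ A c).inv_mem_iff.1 ?_)
    have e := conj_idem (A := A) (c := c) σ h⁻¹
    rw [inv_inv] at e
    rw [e] at hne
    obtain ⟨T, hT, hTi⟩ := exists_intertwiner (σ.comp K.subtype) hA (schur_comp hA _) hc hne
    rw [idem_eq_of_intertwiner (σ.comp K.subtype) hT hTi] at e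
    show σ h⁻¹ * idem A c (σ.comp K.subtype) = idem A c (σ.comp K.subtype) * σ h⁻¹
    conv_rhs => rw [← e]
    rw [mul_assoc (σ h⁻¹ * _), ← map_mul, mul_inv_cancel, map_one, mul_one]
  have h1 := LinearMap.congr_fun (congrArg (fun X => σ h * X) h0) v
  simp only [← mul_assoc, ← map_mul, mul_inv_cancel, map_one, one_mul, mul_zero, LinearMap.zero_apply] at h1
  exact h1

theorem liftable_induced {σ : Representation (RF hM) G V} [Fintype (G ⧸ stab σ A c)] (hA : Schur A c) (hc : c ≠ 0)
    (hirr : ∀ W : Submodule (RF hM) V, (∀ g : G, W ≤ W.comap (σ g)) → W = ⊥ ∨ W = ⊤)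
    (he : idem A c (σ.comp K.subtype) ≠ 0)
    (ih : ∀ (W : Submodule (RF hM) V) (τ : Representation (RF hM) (stab σ A c) W),
      (∀ U : Submodule (RF hM) W, (∀ g, U ≤ U.comap (τ g)) → U = ⊥ ∨ U = ⊤) → finrank (RF hM) W ≠ 0 →
      (∀ g w, (τ g w : V) = σ g w) → Liftable hM τ) : Liftable hM σ := by
  classical
  set e := idem A c (σ.comp K.subtype) with hedef
  have hee : e * e = e := idem_idem _ hA hc
  set W := LinearMap.range e with hW
  have hfix : ∀ w ∈ W, e w = w := by
    rintro _ ⟨v, rfl⟩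
    exact LinearMap.congr_fun hee v
  have hinv : ∀ g : stab σ A c, ∀ w ∈ W, σ g w ∈ W := by
    rintro g _ ⟨v, rfl⟩
    exact ⟨σ g v, (LinearMap.congr_fun (g.2 : Commute (σ g) e).eq v).symm⟩
  let τ : Representation (RF hM) (stab σ A c) W :=
    { toFun := fun g => (σ g).restrict (hinv g)
      map_one' := LinearMap.ext fun w => Subtype.ext (by simp)
      map_mul' := fun g h => LinearMap.ext fun w => Subtype.ext (by
        show σ ((g : G) * h) (w : V) = σ g (σ h w)
        rw [map_mul]; rfl) }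
  have hWne : W ≠ ⊥ := fun h => he (LinearMap.range_eq_bot.1 h)
  have hτ : ∀ U : Submodule (RF hM) W, (∀ g, U ≤ U.comap (τ g)) → U = ⊥ ∨ U = ⊤ := by
    intro U hU
    by_cases hb : U = ⊥
    · exact Or.inl hb
    refine Or.inr (eq_top_iff.2 fun w _ => ?_)
    set U' := U.map W.subtype with hU'
    set S := ⨆ i : G ⧸ stab σ A c, U'.map (σ i.out) with hS
    have hStop : S = ⊤ := by
      refine (hirr S fun g => ?_).resolve_left fun h0 => hb ?_
      · rw [← Submodule.map_le_iff_le_comap, hS, Submodule.map_iSup]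
        refine iSup_le fun j => ?_
        rintro _ ⟨_, ⟨u, hu, rfl⟩, rfl⟩
        obtain ⟨u, huU, rfl⟩ := hu
        refine le_iSup (fun i : G ⧸ stab σ A c => U'.map (σ i.out)) (g • j) ?_
        have hm : (g • j).out⁻¹ * g * j.out ∈ stab σ A c := (out_mem_iff _ _ _).2 rfl
        refine ⟨σ ((g • j).out⁻¹ * g * j.out) (u : V), ⟨τ ⟨_, hm⟩ u, hU ⟨_, hm⟩ huU, rfl⟩, ?_⟩
        rw [← Module.End.mul_apply, ← map_mul, show σ g (σ j.out (W.subtype u)) = (σ g * σ j.out) (u : V) from rfl,
          ← map_mul]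
        congr 2
        group
      · rw [eq_bot_iff]
        intro u hu
        have : σ (QuotientGroup.mk 1 : G ⧸ stab σ A c).out (u : V) ∈ S :=
          le_iSup (fun i : G ⧸ stab σ A c => U'.map (σ i.out)) (QuotientGroup.mk 1) ⟨u, ⟨u, hu, rfl⟩, rfl⟩
        rw [h0, Submodule.mem_bot] at this
        have h1 := congrArg (σ ((QuotientGroup.mk 1 : G ⧸ stab σ A c).out)⁻¹) this
        rw [map_zero, ← Module.End.mul_apply, ← map_mul, inv_mul_cancel, map_one] at h1
        exact Subtype.ext h1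
    have hw : (w : V) ∈ S := hStop ▸ Submodule.mem_top
    obtain ⟨i₀, hi₀⟩ : ∃ i₀ : G ⧸ stab σ A c, i₀ = QuotientGroup.mk 1 := ⟨_, rfl⟩
    have hout : i₀.out ∈ stab σ A c := by
      have := QuotientGroup.out_eq' i₀
      rw [hi₀, QuotientGroup.eq] at this
      rw [hi₀]
      simpa using this
    have hproj : ∀ s ∈ S, e s ∈ U' := by
      intro s hs
      induction hs using Submodule.iSup_induction' with
      | mem i x hx =>
        obtain ⟨_, ⟨u, hu, rfl⟩, rfl⟩ := hx
        by_cases hi : i.out ∈ stab σ A c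
        · exact ⟨τ ⟨_, hi⟩ u, hU ⟨_, hi⟩ hu, ((hfix _ (hinv ⟨_, hi⟩ _ u.2))).symm⟩
        · have h0 := idem_mul_eq_zero hA hc σ hi (u : V)
          rw [hfix _ u.2] at h0
          show e (σ i.out (u : V)) ∈ U'
          rw [h0]; exact zero_mem _
      | zero => simp
      | add x y _ _ hx hy => rw [map_add]; exact add_mem hx hy
    obtain ⟨u, hu, huw⟩ := hproj _ hw
    rw [hfix _ w.2] at huw
    rwa [← Subtype.ext huw]
  have hdim : finrank (RF hM) W ≠ 0 := fun h => hWne (Submodule.finrank_eq_zero.1 h)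
  obtain ⟨m, B, u, hB⟩ := ih W τ hτ hdim fun g w => rfl
  let Φ : ((G ⧸ stab σ A c) × Fin m → RF hM) →ₗ[RF hM] V :=
    ∑ i : G ⧸ stab σ A c, (σ i.out).comp (W.subtype.comp (u.toLinearMap.comp
      (LinearMap.funLeft (RF hM) (RF hM) fun a => (i, a))))
  have hΦ : ∀ f, Φ f = ∑ i : G ⧸ stab σ A c, σ i.out (u (fun a => f (i, a)) : V) := fun f => by
    simp [Φ]; rfl
  have heq : ∀ (g : G) f, σ g (Φ f) = Φ ((indMat (red hM B) g).mulVec f) := by
    intro g f
    rw [hΦ, hΦ, map_sum]
    have hrow : ∀ i : G ⧸ stab σ A c, (fun a => ((indMat (red hM B) g).mulVec f) (i, a)) =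
        ∑ j : G ⧸ stab σ A c, if h : i.out⁻¹ * g * j.out ∈ stab σ A c then
          (red hM B ⟨_, h⟩).mulVec (fun b => f (j, b)) else 0 := by
      intro i
      funext a
      rw [Finset.sum_apply, Matrix.mulVec, dotProduct, Fintype.sum_prod_type]
      refine Finset.sum_congr rfl fun j _ => ?_
      simp only [indMat, indFun, MonoidHom.coe_mk, OneHom.coe_mk, Matrix.of_apply]
      split_ifs
      · rfl
      · simp
    simp only [hrow, map_sum, Submodule.coe_sum]
    rw [Finset.sum_comm]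
    refine Finset.sum_congr rfl fun j _ => ?_
    rw [Finset.sum_eq_single (g • j) (fun i _ hi => by
        rw [dif_neg ((out_mem_iff _ _ _).not.2 hi)]; simp) (fun h => absurd (Finset.mem_univ _) h),
      dif_pos ((out_mem_iff _ _ _).2 rfl)]
    have hm : (g • j).out⁻¹ * g * j.out ∈ stab σ A c := (out_mem_iff _ _ _).2 rfl
    have h1 := congrArg Subtype.val (LinearMap.congr_fun (hB ⟨_, hm⟩) (u fun b => f (j, b)))
    rw [LinearEquiv.conj_apply_apply, u.symm_apply_apply] at h1
    rw [show ((u ((red hM B ⟨_, hm⟩).mulVec fun b => f (j, b)) : W) : V) =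
      σ ((g • j).out⁻¹ * g * j.out) (u fun b => f (j, b) : V) from h1.symm, ← Module.End.mul_apply,
      ← Module.End.mul_apply, ← map_mul, ← map_mul]
    congr 2
    group
  have hinj : Function.Injective Φ := by
    rw [← LinearMap.ker_eq_bot, Submodule.eq_bot_iff]
    intro f hf
    funext ⟨i, a⟩
    have h1 := congrArg (fun v => e (σ i.out⁻¹ v)) (LinearMap.mem_ker.1 hf)
    simp only [hΦ, map_sum, map_zero] at h1
    rw [Finset.sum_eq_single i (fun j _ hj => ?_) (fun h => absurd (Finset.mem_univ _) h),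
      ← Module.End.mul_apply (σ i.out⁻¹), ← map_mul, inv_mul_cancel, map_one, Module.End.one_apply,
      hfix _ (u _).2, ← Submodule.coe_zero (p := W), Subtype.coe_inj, u.map_eq_zero_iff] at h1
    · exact congrFun h1 a
    · rw [← Module.End.mul_apply (σ i.out⁻¹), ← map_mul, ← hfix _ (u _).2]
      exact idem_mul_eq_zero hA hc σ (fun h => hj (((out_mem_iff 1 i j).1 (by rwa [mul_one])).trans (one_smul _ _)).symm) _
  have hsurj : Function.Surjective Φ := by
    rw [← LinearMap.range_eq_top]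
    refine (hirr _ fun g => ?_).resolve_left fun h0 => ?_
    · rintro _ ⟨f, rfl⟩
      exact ⟨_, (heq g f).symm⟩
    · have hm0 : m ≠ 0 := by
        rintro rfl
        rw [← u.finrank_eq, Module.finrank_fin_fun] at hdim
        exact hdim rfl
      have := LinearMap.range_eq_bot.1 h0
      have h2 := congrArg (fun F => F (fun _ => (1 : RF hM))) this
      have h3 : Φ (fun _ => (1 : RF hM)) = Φ 0 := by rw [map_zero]; exact h2
      exact one_ne_zero (congrFun (hinj h3) (QuotientGroup.mk 1, ⟨0, Nat.pos_of_ne_zero hm0⟩))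
  refine liftable_of_matrix hM σ (indMat B) (LinearEquiv.ofBijective Φ ⟨hinj, hsurj⟩) fun g v => ?_
  show σ g (Φ v) = Φ ((red hM (indMat B) g).mulVec v)
  rw [heq]
  congr 2
  exact (indMat_map (res hM) B g).symm

end CfsgLib.FongSwan
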