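import Cfsg.Agent.Blocks.BrauerChar.Span

/-!
# Liftable representations over the residue field
-/

set_option autoImplicit false
set_option linter.unusedSectionVars false
set_option linter.style.haveILetI false

namespace CfsgLib.FongSwan

open Cfsg CfsgLib CfsgLib.Blocks CfsgLib.BrauerChar Module

variable {p : ℕ} {M : Ideal AlgInt} (hM : IsPModular p M) {G : Type*} [Group G]

section Matrix

variable {ι : Type*} [Fintype ι] [DecidableEq ι]

/-- Reduction of a matrix representation over the place. -/
noncomputable def red (A : G →* Matrix ι ι (plc hM)) : G →* Matrix ι ι (RF hM) :=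
  (res hM).mapMatrix.toMonoidHom.comp A

/-- A matrix representation as a representation. -/
noncomputable def toRep {F : Type*} [Field F] (A : G →* Matrix ι ι F) : Representation F G (ι → F) :=
  (Matrix.toLinAlgEquiv' : Matrix ι ι F ≃ₐ[F] _).toRingEquiv.toRingHom.toMonoidHom.comp A

theorem toRep_apply {F : Type*} [Field F] (A : G →* Matrix ι ι F) (g : G) : toRep A g = Matrix.toLin' (A g) := rfl

end Matrix

variable {V : Type*} [AddCommGroup V] [Module (RF hM) V]

/-- The orthogonality relations of the matrix entries. -/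
def Schur {F : Type*} [CommRing F] {K : Type*} [Group K] [Fintype K] {ι : Type*} [Fintype ι] [DecidableEq ι]
    (A : K →* Matrix ι ι F) (c : F) : Prop :=
  ∀ a b b' d, ∑ y : K, A y a b * A y⁻¹ b' d = if a = d ∧ b = b' then c else 0

/-- The representation is the reduction of a matrix representation over the place. -/
def Liftable (σ : Representation (RF hM) G V) : Prop :=
  ∃ (n : ℕ) (A : G →* Matrix (Fin n) (Fin n) (plc hM)) (e : (Fin n → RF hM) ≃ₗ[RF hM] V),
    ∀ g, σ g = e.conj (toRep (red hM A) g)

theorem liftable_of_matrix {ι : Type*} [Fintype ι] [DecidableEq ι] (σ : Representation (RF hM) G V)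
    (A : G →* Matrix ι ι (plc hM)) (e : (ι → RF hM) ≃ₗ[RF hM] V)
    (h : ∀ g v, σ g (e v) = e ((red hM A g).mulVec v)) : Liftable hM σ := by
  classical
  let u := Fintype.equivFin ι
  refine ⟨Fintype.card ι, (Matrix.reindexAlgEquiv (plc hM) (plc hM) u).toRingEquiv.toRingHom.toMonoidHom.comp A,
    (LinearEquiv.funCongrLeft (RF hM) (RF hM) u).trans e, fun g => LinearMap.ext fun w => ?_⟩
  obtain ⟨v, rfl⟩ := ((LinearEquiv.funCongrLeft (RF hM) (RF hM) u).trans e).surjective w
  rw [LinearEquiv.conj_apply_apply, LinearEquiv.symm_apply_apply, LinearEquiv.trans_apply, h]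
  show _ = e _
  congr 1
  funext i
  simp only [toRep_apply, Matrix.toLin'_apply, Matrix.mulVec, dotProduct, red, LinearEquiv.funCongrLeft_apply,
    LinearMap.funLeft_apply]
  refine Fintype.sum_equiv u _ _ fun j => ?_
  simp [Matrix.reindex_apply]

theorem Liftable.comp {σ : Representation (RF hM) G V} (h : Liftable hM σ) {H : Type*} [Group H] (f : H →* G) :
    Liftable hM (σ.comp f) := by
  obtain ⟨n, A, e, he⟩ := h
  exact ⟨n, A.comp f, e, fun g => he (f g)⟩

/-- A representation of a group of order prime to `p` is liftable when it is irreducible. -/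
theorem exists_schur_model [Fintype G] [Module.Finite (RF hM) V] (hG : ¬ p ∣ Nat.card G)
    (σ : Representation (RF hM) G V) (hirr : ∀ W : Submodule (RF hM) V, (∀ g : G, W ≤ W.comap (σ g)) → W = ⊥ ∨ W = ⊤)
    (hV : finrank (RF hM) V ≠ 0) :
    ∃ (n : ℕ) (A : G →* Matrix (Fin n) (Fin n) (plc hM)) (e : (Fin n → RF hM) ≃ₗ[RF hM] V) (q : ℕ),
      (∀ g, σ g = e.conj (toRep (red hM A) g)) ∧ ¬ p ∣ q ∧ n * q = Nat.card G ∧
      Schur A (q : plc hM) := by
  classical
  haveI : Fintype (IrrCharacter G) := @Fintype.ofFinite _ CharBasics.finite_irrCharacter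
  set e := (Module.finBasis (RF hM) V).equivFun with he
  let τ : Representation (RF hM) G (Fin (finrank (RF hM) V) → RF hM) :=
    { toFun := fun g => e.conj (σ g)
      map_one' := by simp [LinearEquiv.conj_id, Module.End.one_eq_id]
      map_mul' := fun g h => by rw [map_mul, Module.End.mul_eq_comp, LinearEquiv.conj_comp]; rfl }
  have hτ : τ.IsIrreducible := by
    haveI : Nontrivial (Subrepresentation τ) := by
      refine ⟨⟨⟨⊥, fun g v hv => by simp at hv; simp [hv]⟩, ⟨⊤, fun _ _ _ => trivial⟩, fun h => ?_⟩⟩
      have := congrArg (fun S : Subrepresentation τ => finrank (RF hM) S.toSubmodule) h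
      simp at this
      exact hV this.symm
    refine ⟨fun S => ?_⟩
    rcases hirr (S.toSubmodule.comap (e : V →ₗ[RF hM] Fin (finrank (RF hM) V) → RF hM)) (fun g v hv => by
      have := S.apply_mem_toSubmodule g hv
      simpa [τ, LinearEquiv.conj_apply_apply] using this) with h | h
    · left
      refine Subrepresentation.toSubmodule_injective (show S.toSubmodule = ⊥ from ?_)
      rw [← Submodule.map_comap_eq_of_surjective e.surjective S.toSubmodule, h, Submodule.map_bot]
    · right
      refine Subrepresentation.toSubmodule_injective (show S.toSubmodule = ⊤ from ?_)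
      rw [← Submodule.map_comap_eq_of_surjective e.surjective S.toSubmodule, h, Submodule.map_top, LinearEquiv.range]
  let φ : IBr hM G := ⟨bc hM τ, _, τ, hτ, rfl⟩
  obtain ⟨χ, hχ⟩ := exists_dec_ne_zero hM φ
  obtain ⟨n, m, ρ, B, A, hρi, hρ, hA⟩ := exists_integral_model hM χ
  have hred := reduceRep_irreducible hM hG ρ hρi B A hA
  have hreg : ∀ g : G, ¬ p ∣ orderOf g := fun g h => hG (h.trans (orderOf_dvd_natCard g))
  let φ₀ : IBr hM G := ⟨bc hM (reduceRep hM A), m, reduceRep hM A, hred, rfl⟩
  have hφ : φ = φ₀ := by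
    by_contra hne
    have h := coeff_eq_zero hM (c := fun ψ : IBr hM G => (dec hM χ ψ : ℂ) - if ψ = φ₀ then 1 else 0) (fun g => ?_) φ
    · rw [if_neg hne, sub_zero, Nat.cast_eq_zero] at h
      exact hχ h
    · simp only [sub_mul, Finset.sum_sub_distrib, ← apply_eq_sum_dec hM χ (hreg g), ite_mul, one_mul, zero_mul,
        Finset.sum_ite_eq', Finset.mem_univ, if_true]
      rw [← hρ, ← bc_reduceRep hM hA (hreg g)]
      exact sub_self _
  have hiso : ∃ f : (Fin m → RF hM) ≃ₗ[RF hM] (Fin (finrank (RF hM) V) → RF hM),
      ∀ g, τ g = f.conj (reduceRep hM A g) := by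
    by_contra hno
    let d : Bool → ℕ := fun b => cond b m (finrank (RF hM) V)
    let R : ∀ b, Representation (RF hM) G (Fin (d b) → RF hM) := fun b =>
      match b with
      | true => reduceRep hM A
      | false => τ
    have hne : ∀ (b b' : Bool) (f : (Fin (d b) → RF hM) ≃ₗ[RF hM] (Fin (d b') → RF hM)),
        (∀ g, R b' g = f.conj (R b g)) → b = b' := by
      rintro (_ | _) (_ | _) f hf <;> try rfl
      · refine absurd ⟨f.symm, fun g => ?_⟩ hno
        refine LinearMap.ext fun w => ?_
        rw [show reduceRep hM A g = f.conj (τ g) from hf g, LinearEquiv.conj_apply_apply,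
          LinearEquiv.conj_apply_apply, LinearEquiv.symm_symm, f.symm_apply_apply, f.symm_apply_apply]
      · exact absurd ⟨f, hf⟩ hno
    have h0 := trace_indep d R (fun b => by cases b <;> assumption) hne (fun b => cond b 1 (-1)) fun g hg => by
      rw [Fintype.sum_bool]
      show 1 * LinearMap.trace (RF hM) _ (reduceRep hM A g) + (-1) * LinearMap.trace (RF hM) _ (τ g) = 0
      rw [← res_bc _ hg, ← res_bc τ hg]
      have hfun : bc hM (reduceRep hM A) = bc hM τ := (congrArg Subtype.val hφ).symm
      simp only [hfun]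
      ring
    exact one_ne_zero (congrFun h0 true)
  obtain ⟨f, hf⟩ := hiso
  have hn : (n : ℂ) ≠ 0 := by
    have := CharBasics.apply_one_ne_zero (G := G) (χ := ρ.character) ⟨n, ρ, hρi, rfl⟩
    rwa [Representation.char_one, Module.finrank_fin_fun] at this
  have hm : m = n := by
    have := Module.finrank_eq_card_basis B
    rw [Module.finrank_fin_fun, Fintype.card_fin] at this
    exact this.symm
  obtain ⟨q, hq⟩ : n ∣ Nat.card G := by
    have h := CharBasics.degree_dvd (G := G) ⟨ρ.character, ⟨n, ρ, hρi, rfl⟩⟩
    simpa [charDegree, Representation.char_one] using h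
  refine ⟨m, A, f.trans e.symm, q, fun g => LinearMap.ext fun v => ?_,
    fun h => hG (hq ▸ dvd_mul_of_dvd_right h n), hm ▸ hq.symm, fun a b b' d => ?_⟩
  · have h1 : e (σ g v) = f ((reduceRep hM A g) (f.symm (e v))) := by
      have := LinearMap.congr_fun (hf g) (e v)
      simpa [τ, LinearEquiv.conj_apply_apply] using this
    rw [LinearEquiv.conj_apply_apply, LinearEquiv.trans_apply]
    apply e.injective
    rw [h1, e.apply_symm_apply]
    rfl
  · have h := congrFun (congrFun (matrix_sum_conj hM ρ hρi B A hA (c := (q : plc hM))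
      (by rw [hq]; push_cast; field_simp) (Matrix.single b b' 1)) a) d
    rw [Matrix.sum_apply] at h
    have hl : ∀ y : G, (A y * Matrix.single b b' 1 * A y⁻¹ : Matrix (Fin m) (Fin m) (plc hM)) a d =
        A y a b * A y⁻¹ b' d := fun y => by
      rw [mul_assoc, Matrix.mul_apply, Finset.sum_eq_single b (fun j _ hj => by simp [hj])
        (fun h => absurd (Finset.mem_univ b) h), Matrix.single_mul_apply_same, one_mul]
    rw [Finset.sum_congr rfl fun y _ => hl y] at h
    rw [h]
    by_cases hb : b = b'
    · subst hb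
      by_cases ha : a = d <;> simp [Matrix.one_apply, ha]
    · simp [Matrix.trace_single_eq_of_ne _ _ _ hb, hb]

theorem schur_red {K : Type*} [Group K] [Fintype K] {ι : Type*} [Fintype ι] [DecidableEq ι]
    {A : K →* Matrix ι ι (plc hM)} {c : plc hM} (h : Schur A c) : Schur (red hM A) (res hM c) := by
  intro a b b' d
  have := congrArg (res hM) (h a b b' d)
  rw [map_sum] at this
  simp only [map_mul, apply_ite (res hM), map_zero] at this
  exact this

end CfsgLib.FongSwan
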