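import Cfsg.Agent.Blocks.FongSwan.Stable
import Cfsg.Agent.PCore.PSolvable

/-!
# The Fong–Swan theorem
-/

set_option autoImplicit false
set_option linter.unusedSectionVars false
set_option linter.style.haveILetI false

namespace CfsgLib.FongSwan

universe u

open Cfsg CfsgLib CfsgLib.Blocks CfsgLib.BrauerChar Module

variable {p : ℕ} {M : Ideal AlgInt} {hM : IsPModular p M}

/-- A `p`-group in characteristic `p` fixes a nonzero vector. -/
theorem exists_fixed_vector [Fact p.Prime] {P : Type*} [Group P] [Finite P] (hP : IsPGroup p P)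
    {V : Type*} [AddCommGroup V] [Module (RF hM) V] [Nontrivial V] (σ : Representation (RF hM) P V) :
    ∃ v : V, v ≠ 0 ∧ ∀ g, σ g v = v := by
  obtain ⟨v, hv⟩ := exists_ne (0 : V)
  set S := AddSubgroup.closure (Set.range fun g => σ g v) with hS
  haveI : Finite (Set.range fun g => σ g v) := (Set.finite_range _).to_subtype
  haveI : AddGroup.FG S := AddGroup.closure_finite_fg _
  have hp : ∀ x : V, p • x = 0 := fun x => by
    rw [← Nat.cast_smul_eq_nsmul (RF hM), CharP.cast_eq_zero, zero_smul]
  haveI : Finite S := AddCommGroup.finite_of_fg_isAddTorsion S fun x =>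
    isOfFinAddOrder_iff_nsmul_eq_zero.2 ⟨p, (Fact.out : p.Prime).pos, Subtype.ext (by simpa using hp x)⟩
  have hinv : ∀ g : P, ∀ x ∈ S, σ g x ∈ S := fun g x hx => by
    induction hx using AddSubgroup.closure_induction with
    | mem y hy =>
      obtain ⟨h, rfl⟩ := hy
      exact AddSubgroup.subset_closure ⟨g * h, by simp [map_mul]⟩
    | zero => simp
    | add a b _ _ ha hb => rw [map_add]; exact add_mem ha hb
    | neg a _ ha => rw [map_neg]; exact neg_mem ha
  letI : MulAction P S :=
    { smul := fun g x => ⟨σ g x, hinv g x x.2⟩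
      one_smul := fun x => Subtype.ext (show σ 1 (x : V) = x by simp)
      mul_smul := fun g h x => Subtype.ext (show σ (g * h) (x : V) = σ g (σ h x) by rw [map_mul]; rfl) }
  have hmem : v ∈ S := AddSubgroup.subset_closure ⟨1, by simp⟩
  have hdvd : p ∣ Nat.card S := by
    have h : addOrderOf (⟨v, hmem⟩ : S) = p :=
      addOrderOf_eq_prime (Subtype.ext (by simpa using hp v)) (fun h => hv (congrArg Subtype.val h))
    exact h ▸ addOrderOf_dvd_natCard _
  obtain ⟨b, hb, hne⟩ := hP.exists_fixed_point_of_prime_dvd_card_of_fixed_point (α := S) hdvd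
    (a := 0) (fun g => Subtype.ext (map_zero (σ g)))
  exact ⟨b, fun h => hne (Subtype.ext h.symm), fun g => congrArg Subtype.val (hb g)⟩

theorem pCore_acts_trivially [Fact p.Prime] {G : Type*} [Group G] [Finite G] {V : Type*} [AddCommGroup V]
    [Module (RF hM) V] [Nontrivial V] {σ : Representation (RF hM) G V}
    (hirr : ∀ W : Submodule (RF hM) V, (∀ g : G, W ≤ W.comap (σ g)) → W = ⊥ ∨ W = ⊤) :
    ∀ x ∈ pCore p G, σ x = 1 := by
  haveI : (pCore p G).Normal := pCore_normal p G
  obtain ⟨v, hv, hfix⟩ := exists_fixed_vector (PCore.isPGroup_pCore p G) (σ.comp (pCore p G).subtype)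
  let W : Submodule (RF hM) V :=
    { carrier := {w | ∀ x ∈ pCore p G, σ x w = w}
      zero_mem' := fun x _ => map_zero _
      add_mem' := fun ha hb x hx => by rw [map_add, ha x hx, hb x hx]
      smul_mem' := fun c w hw x hx => by rw [map_smul, hw x hx] }
  rcases hirr W (fun g w hw x hx => by
    have h := hw _ ((inferInstance : (pCore p G).Normal).conj_mem' x hx g)
    conv_rhs => rw [← h]
    rw [← Module.End.mul_apply, ← Module.End.mul_apply, ← map_mul, ← map_mul]
    congr 2
    group) with h | h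
  · have hvW : v ∈ W := fun x hx => hfix ⟨x, hx⟩
    rw [h, Submodule.mem_bot] at hvW
    exact absurd hvW hv
  · intro x hx
    exact LinearMap.ext fun w => (show w ∈ W from h ▸ Submodule.mem_top) x hx

theorem pCore_ne_bot_of_central [Fact p.Prime] {G : Type*} [Group G] [Finite G] (Z : Subgroup G) [Z.Normal]
    (hZc : Z ≤ Subgroup.center G) (hZ : ¬ p ∣ Nat.card Z) (h : pCore p (G ⧸ Z) ≠ ⊥) : pCore p G ≠ ⊥ := by
  haveI : (pCore p (G ⧸ Z)).Normal := pCore_normal p _
  set P₁ := (pCore p (G ⧸ Z)).comap (QuotientGroup.mk' Z) with hP₁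
  have hle : Z ≤ P₁ := fun x hx => by
    rw [hP₁, Subgroup.mem_comap, QuotientGroup.mk'_apply, (QuotientGroup.eq_one_iff x).2 hx]
    exact one_mem _
  have hcard : Nat.card (Z.subgroupOf P₁) = Nat.card Z := Nat.card_congr (Subgroup.subgroupOfEquivOfLe hle).toEquiv
  have hidx : (Z.subgroupOf P₁).index = Nat.card (pCore p (G ⧸ Z)) := by
    have h1 := (Z.subgroupOf P₁).card_mul_index
    rw [hcard] at h1
    exact Nat.eq_of_mul_eq_mul_left Nat.card_pos (h1.trans (PCore.card_comap_mk' Z (pCore p (G ⧸ Z))))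
  obtain ⟨a, ha⟩ := IsPGroup.iff_card.1 (PCore.isPGroup_pCore p (G ⧸ Z))
  obtain ⟨P, hP⟩ := Subgroup.exists_right_complement'_of_coprime (N := Z.subgroupOf P₁) (by
    rw [hcard, hidx, ha]
    exact Nat.Coprime.pow_right _ (((Fact.out : p.Prime).coprime_iff_not_dvd.2 hZ).symm))
  have hPc : Nat.card P = p ^ a := by
    have h1 := hP.card_mul
    rw [hcard, ← (Z.subgroupOf P₁).card_mul_index, hcard, hidx, ha] at h1
    exact Nat.eq_of_mul_eq_mul_left Nat.card_pos h1
  have hPn : P.Normal := by
    rw [← Subgroup.normalizer_eq_top_iff, eq_top_iff, ← hP.sup_eq_top]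
    refine sup_le (fun z hz => ?_) Subgroup.le_normalizer
    refine Subgroup.mem_normalizer_iff.2 fun x => ?_
    have hzx : z * x * z⁻¹ = x := by
      rw [mul_inv_eq_iff_eq_mul]
      exact Subtype.ext ((Subgroup.mem_center_iff.1 (hZc hz)) x).symm
    rw [hzx]
  have hne : P ≠ ⊥ := fun h0 => h (Subgroup.card_eq_one.1 (by
    rw [ha, ← hPc, h0, Subgroup.card_bot]))
  intro h0
  have h1 := PCore.map_pCore_normal (p := p) P₁
  rw [h0, bot_inf_eq] at h1
  have h2 := PCore.le_pCore (p := p) hPn (IsPGroup.of_card hPc)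
  rw [(Subgroup.map_eq_bot_iff_of_injective _ Subtype.val_injective).1 h1] at h2
  exact hne (le_bot_iff.1 h2)

/-- Fong–Swan for a central extension of a `p`-solvable group by a `p'`-group. -/
theorem liftable_of_central (hM : IsPModular p M) (k : ℕ) :
    ∀ (G : Type u) [Group G] [Fintype G] (Z : Subgroup G) [Z.Normal], Z.index = k → Z ≤ Subgroup.center G →
      ¬ p ∣ Nat.card Z → IsPSolvable p (G ⧸ Z) →
      ∀ (V : Type) [AddCommGroup V] [Module (RF hM) V] [Module.Finite (RF hM) V] (σ : Representation (RF hM) G V),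
        (∀ W : Submodule (RF hM) V, (∀ g : G, W ≤ W.comap (σ g)) → W = ⊥ ∨ W = ⊤) → finrank (RF hM) V ≠ 0 →
        Liftable hM σ := by
  classical
  haveI : Fact p.Prime := ⟨hM.1⟩
  induction k using Nat.strong_induction_on with
  | _ k ih =>
  intro G _ _ Z _ hk hZc hZp hsol V _ _ _ σ hirr hV
  subst hk
  by_cases hZt : Z = ⊤
  · obtain ⟨n, A, e, q, hA, -⟩ := exists_schur_model hM (fun h => hZp (by rw [hZt, Subgroup.card_top]; exact h)) σ hirr hV
    exact ⟨n, A, e, hA⟩
  haveI : Nontrivial (G ⧸ Z) := QuotientGroup.nontrivial_iff.2 hZt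
  haveI : Nontrivial V := Module.nontrivial_of_finrank_pos (R := RF hM) (Nat.pos_of_ne_zero hV)
  rcases PCore.cores_ne_bot hsol with hp | hp'
  · -- a normal `p`-subgroup acts trivially
    have hne := pCore_ne_bot_of_central Z hZc hZp hp
    haveI : (pCore p G).Normal := pCore_normal p G
    have hsurj := QuotientGroup.mk'_surjective (pCore p G)
    haveI : (Z.map (QuotientGroup.mk' (pCore p G))).Normal := Subgroup.Normal.map inferInstance _ hsurj
    have hlt : (Z.map (QuotientGroup.mk' (pCore p G))).index < Z.index := by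
      rw [Subgroup.index_map, QuotientGroup.ker_mk', MonoidHom.range_eq_top.2 hsurj, Subgroup.index_top, mul_one]
      refine Subgroup.index_strictAnti (lt_of_le_of_ne le_sup_left fun he => hne (eq_bot_iff.2 fun x hx => ?_))
      have hxZ : x ∈ Z := he ▸ (le_sup_right : pCore p G ≤ Z ⊔ pCore p G) hx
      rw [Subgroup.mem_bot, ← orderOf_eq_one_iff]
      obtain ⟨a, ha⟩ := (IsPGroup.iff_orderOf.1 (PCore.isPGroup_pCore p G)) ⟨x, hx⟩
      rw [Subgroup.orderOf_mk] at ha
      rcases Nat.eq_zero_or_pos a with rfl | hpos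
      · simpa using ha
      · exact absurd ((dvd_pow_self p hpos.ne').trans (ha ▸ Subgroup.orderOf_dvd_natCard Z hxZ)) hZp
    have hsol' : IsPSolvable p ((G ⧸ pCore p G) ⧸ Z.map (QuotientGroup.mk' (pCore p G))) :=
      PCore.isPSolvable_map hsol (QuotientGroup.map Z _ (QuotientGroup.mk' _) (Subgroup.le_comap_map _ _)) (by
        intro z
        obtain ⟨y, rfl⟩ := QuotientGroup.mk'_surjective _ z
        obtain ⟨x, rfl⟩ := hsurj y
        exact ⟨QuotientGroup.mk x, rfl⟩)
    haveI : Fintype (G ⧸ pCore p G) := Fintype.ofFinite _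
    have hker : pCore p G ≤ MonoidHom.ker σ := pCore_acts_trivially hirr
    have hl := ih _ hlt (G ⧸ pCore p G) (Z.map (QuotientGroup.mk' (pCore p G))) rfl (by
        rintro _ ⟨z, hz, rfl⟩
        refine Subgroup.mem_center_iff.2 fun y => ?_
        obtain ⟨x, rfl⟩ := hsurj y
        rw [← map_mul, ← map_mul, Subgroup.mem_center_iff.1 (hZc hz) x])
      (fun h => hZp (h.trans (Subgroup.card_map_dvd _ _))) hsol' V (QuotientGroup.lift _ σ hker)
      (fun W hW => hirr W fun g => hW (QuotientGroup.mk g)) hV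
    exact Liftable.comp hM hl (QuotientGroup.mk' (pCore p G))
  · -- a normal `p'`-subgroup
    haveI : (pPrimeCore p (G ⧸ Z)).Normal := pPrimeCore_normal p _
    set K := (pPrimeCore p (G ⧸ Z)).comap (QuotientGroup.mk' Z) with hK
    have hcardK : Nat.card K = Nat.card Z * Nat.card (pPrimeCore p (G ⧸ Z)) := PCore.card_comap_mk' Z _
    have hKp : ¬ p ∣ Nat.card K := fun h => by
      rw [hcardK] at h
      exact (hM.1.dvd_mul.1 h).elim hZp fun h' =>
        (Fact.out : p.Prime).coprime_iff_not_dvd.1 (PCore.pPrimeCore_coprime p (G ⧸ Z)).symm h'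
    have hZK : Z < K := by
      refine lt_of_le_of_ne (fun x hx => ?_) fun he => hp' (Subgroup.card_eq_one.1 ?_)
      · rw [hK, Subgroup.mem_comap, QuotientGroup.mk'_apply, (QuotientGroup.eq_one_iff x).2 hx]
        exact one_mem _
      · rw [← he] at hcardK
        exact Nat.eq_of_mul_eq_mul_left Nat.card_pos (hcardK.symm.trans (mul_one _).symm)
    -- a constituent
    obtain ⟨U, hU⟩ := exists_minimal_of_wellFoundedLT
      (fun U : Submodule (RF hM) V => U ≠ ⊥ ∧ ∀ y : K, U ≤ U.comap (σ y)) ⟨⊤, top_ne_bot, fun y => le_top⟩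
    have hUinv : ∀ y : K, ∀ u ∈ U, σ y u ∈ U := fun y u hu => hU.1.2 y hu
    let τ : Representation (RF hM) K U :=
      { toFun := fun y => (σ y).restrict (hUinv y)
        map_one' := LinearMap.ext fun w => Subtype.ext (by simp)
        map_mul' := fun g h => LinearMap.ext fun w => Subtype.ext (by
          show σ ((g : G) * h) (w : V) = σ g (σ h w)
          rw [map_mul]; rfl) }
    have hτ : ∀ W : Submodule (RF hM) U, (∀ y, W ≤ W.comap (τ y)) → W = ⊥ ∨ W = ⊤ := by
      intro W hW
      refine or_iff_not_imp_left.2 fun hb => ?_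
      have h1 := hU.2 (y := W.map U.subtype) ⟨fun h => hb (by
        rw [← Submodule.comap_map_eq_of_injective (f := U.subtype) Subtype.val_injective W, h,
          Submodule.comap_bot, Submodule.ker_subtype]), fun y => by
          rintro _ ⟨u, hu, rfl⟩
          exact ⟨τ y u, hW y hu, rfl⟩⟩ (Submodule.map_subtype_le _ _)
      refine eq_top_iff.2 fun u _ => ?_
      obtain ⟨u', hu', he⟩ := h1 u.2
      rwa [← Subtype.ext he]
    obtain ⟨n, A, e, q, hA, hq, hnq, hS⟩ := exists_schur_model hM hKp τ hτ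
      (fun h => hU.1.1 (Submodule.finrank_eq_zero.1 h))
    have hc : (q : RF hM) ≠ 0 := natCast_ne_zero hM hq
    have hSk : Schur (red hM A) (q : RF hM) := by simpa using schur_red hM hS
    have hidU : ∀ u : U, idem (red hM A) (q : RF hM) (σ.comp K.subtype) (u : V) = u := by
      intro u
      rw [idem_eq_trace]
      simp only [LinearMap.smul_apply, LinearMap.sum_apply]
      obtain ⟨w, rfl⟩ := e.surjective u
      have hσ : ∀ y : K, σ y (e w : V) = (e ((red hM A y).mulVec w) : V) := fun y => by
        have := congrArg Subtype.val (LinearMap.congr_fun (hA y) (e w))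
        rw [LinearEquiv.conj_apply_apply, e.symm_apply_apply] at this
        exact this
      simp only [MonoidHom.comp_apply, Subgroup.coe_subtype, hσ, ← Submodule.coe_smul, ← Submodule.coe_sum,
        ← map_smul, ← map_sum, ← Matrix.smul_mulVec, ← Matrix.sum_mulVec]
      congr 2
      conv_rhs => rw [← Matrix.one_mulVec w, eq_sum_of_schur hSk hc 1]
      simp only [one_mul]
    obtain ⟨u₀, hu₀, hu₀ne⟩ := U.ne_bot_iff.1 hU.1.1
    have he0 : idem (red hM A) (q : RF hM) (σ.comp K.subtype) ≠ 0 := fun h => hu₀ne (by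
      have := hidU ⟨u₀, hu₀⟩
      rw [h, LinearMap.zero_apply] at this
      exact this.symm)
    set S := stab σ (red hM A) (q : RF hM) with hSdef
    by_cases hSt : S = ⊤
    · have he1 : idem (red hM A) (q : RF hM) (σ.comp K.subtype) = 1 := by
        set ee := idem (red hM A) (q : RF hM) (σ.comp K.subtype)
        rcases hirr (LinearMap.range ee) (fun g => by
          rintro _ ⟨v, rfl⟩
          have hg : g ∈ S := hSt ▸ Subgroup.mem_top g
          exact ⟨σ g v, (LinearMap.congr_fun (hg : Commute (σ g) ee).eq v).symm⟩) with h | h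
        · exact absurd (LinearMap.range_eq_bot.1 h) he0
        · refine LinearMap.ext fun v => ?_
          obtain ⟨v', rfl⟩ := (LinearMap.range_eq_top.1 h) v
          exact LinearMap.congr_fun (idem_idem _ hSk hc) v'
      refine liftable_stable hirr hV hKp hS hnq he1 fun H _ _ Z' _ hZ'c hZ'p ⟨φ⟩ W τ' hτ' hW => ?_
      refine ih _ ?_ H Z' rfl hZ'c hZ'p (PCore.isPSolvable_of_equiv φ.symm ?_) W τ' hτ' hW
      · rw [Subgroup.index_eq_card, Nat.card_congr φ.toEquiv, ← Subgroup.index_eq_card]
        exact Subgroup.index_strictAnti hZK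
      · refine PCore.isPSolvable_map hsol (QuotientGroup.map Z K (MonoidHom.id G) (by simpa using hZK.le)) ?_
        intro z
        obtain ⟨x, rfl⟩ := QuotientGroup.mk'_surjective K z
        exact ⟨QuotientGroup.mk x, rfl⟩
    · haveI : Fintype (G ⧸ S) := Fintype.ofFinite _
      haveI : Fintype S := Fintype.ofFinite _
      have hZS : Z ≤ S := fun x hx => mem_stab_of_mem σ (hZK.le hx)
      refine liftable_induced hSk hc hirr he0 fun W τ' hτ' hW _ => ?_
      refine ih (Z.subgroupOf S).index ?_ S (Z.subgroupOf S) rfl ?_ ?_ ?_ W τ' hτ' hW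
      · show Z.relIndex S < Z.index
        rw [← Subgroup.relIndex_mul_index hZS]
        refine lt_mul_of_one_lt_right (Nat.pos_of_ne_zero Subgroup.index_ne_zero_of_finite) ?_
        exact Subgroup.one_lt_index_of_ne_top hSt
      · intro z hz
        exact Subgroup.mem_center_iff.2 fun x => Subtype.ext (Subgroup.mem_center_iff.1 (hZc hz) x)
      · rwa [Nat.card_congr (Subgroup.subgroupOfEquivOfLe hZS).toEquiv]
      · let f := QuotientGroup.map (Z.subgroupOf S) Z S.subtype le_rfl
        have hf : Function.Injective f := (injective_iff_map_eq_one f).2 fun z hz => by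
          obtain ⟨x, rfl⟩ := QuotientGroup.mk'_surjective _ z
          exact (QuotientGroup.eq_one_iff x).2 (show (x : G) ∈ Z from (QuotientGroup.eq_one_iff _).1 hz)
        exact PCore.isPSolvable_of_equiv (MonoidHom.ofInjective hf).symm (PCore.isPSolvable_subgroup hsol _)

/-- The Fong–Swan theorem: irreducible modular representations of `p`-solvable groups lift. -/
theorem liftable_of_isPSolvable (hM : IsPModular p M) {G : Type u} [Group G] [Fintype G] (hG : IsPSolvable p G)
    {V : Type} [AddCommGroup V] [Module (RF hM) V] [Module.Finite (RF hM) V] (σ : Representation (RF hM) G V)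
    (hirr : ∀ W : Submodule (RF hM) V, (∀ g : G, W ≤ W.comap (σ g)) → W = ⊥ ∨ W = ⊤)
    (hV : finrank (RF hM) V ≠ 0) : Liftable hM σ :=
  haveI : Fact p.Prime := ⟨hM.1⟩
  liftable_of_central hM _ G ⊥ rfl bot_le (by rw [Subgroup.card_bot]; exact hM.1.not_dvd_one)
    (PCore.isPSolvable_quotient hG ⊥) V σ hirr hV

end CfsgLib.FongSwan
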