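import Cfsg.Agent.Blocks.FongSwan.Twist

/-!
# Lifting when the constituent of a normal `p'`-subgroup is invariant
-/

set_option autoImplicit false
set_option linter.unusedSectionVars false
set_option linter.style.haveILetI false

namespace CfsgLib.FongSwan

universe u

open Cfsg CfsgLib CfsgLib.Blocks CfsgLib.BrauerChar Module
open scoped Kronecker

section Act

variable {F : Type*} [Field F] {ι : Type*} [Fintype ι] [DecidableEq ι] {W : Type*} [AddCommGroup W] [Module F W]

/-- Matrices acting on tuples of vectors. -/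
noncomputable def act : Matrix ι ι F →ₐ[F] Module.End F (ι → W) :=
  AlgHom.ofLinearMap
    { toFun := fun M =>
        { toFun := fun f a => ∑ r, M a r • f r
          map_add' := fun f g => by funext a; simp [Finset.sum_add_distrib]
          map_smul' := fun t f => by funext a; simp [Finset.smul_sum, smul_comm t] }
      map_add' := fun M N => LinearMap.ext fun f => by
        funext a
        show ∑ r, (M + N) a r • f r = ∑ r, M a r • f r + ∑ r, N a r • f r
        simp [add_smul, Finset.sum_add_distrib]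
      map_smul' := fun t M => LinearMap.ext fun f => by
        funext a
        show ∑ r, (t • M) a r • f r = t • ∑ r, M a r • f r
        simp [Finset.smul_sum, smul_smul] }
    (LinearMap.ext fun f => by
      funext a
      show ∑ r, (1 : Matrix ι ι F) a r • f r = f a
      simp [Matrix.one_apply, ite_smul])
    (fun M N => LinearMap.ext fun f => by
      funext a
      show ∑ r, (M * N) a r • f r = ∑ r, M a r • ∑ s, N r s • f s
      simp only [Matrix.mul_apply, Finset.sum_smul, Finset.smul_sum, smul_smul]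
      exact Finset.sum_comm)

theorem act_apply (M : Matrix ι ι F) (f : ι → W) (a : ι) : act M f a = ∑ r, M a r • f r := rfl

theorem act_single (i a : ι) (f : ι → W) : act (Matrix.single i a (1 : F)) f = Pi.single i (f a) := by
  funext b
  rw [act_apply, Finset.sum_eq_single a (fun r _ hr => by simp [Matrix.single_apply, Ne.symm hr])
    (fun h => absurd (Finset.mem_univ a) h)]
  rcases eq_or_ne b i with rfl | hb
  · simp
  · simp [Matrix.single_apply, hb, Ne.symm hb]

end Act

theorem eq_sum_of_schur {F : Type*} [Field F] {K : Type*} [Group K] [Fintype K] {ι : Type*} [Fintype ι]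
    [DecidableEq ι] {A : K →* Matrix ι ι F} {c : F} (hA : Schur A c) (hc : c ≠ 0) (X : Matrix ι ι F) :
    X = c⁻¹ • ∑ y : K, (X * A y⁻¹).trace • A y := by
  ext a b
  have key : ∀ r s, (∑ y : K, X r s * A y⁻¹ s r * A y a b) = if a = r ∧ b = s then X r s * c else 0 := fun r s => by
    rw [Finset.sum_congr rfl fun y _ => (by ring : X r s * A y⁻¹ s r * A y a b = X r s * (A y a b * A y⁻¹ s r)),
      ← Finset.mul_sum, hA]
    split_ifs <;> simp
  simp only [Matrix.smul_apply, Matrix.sum_apply, Matrix.trace, Matrix.diag, Matrix.mul_apply, smul_eq_mul,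
    Finset.sum_mul]
  rw [Finset.sum_comm, Finset.sum_congr rfl fun r _ =>
    (show (∑ y : K, ∑ s, X r s * A y⁻¹ s r * A y a b) = ∑ s, if a = r ∧ b = s then X r s * c else 0 from
      Finset.sum_comm.trans (Finset.sum_congr rfl fun s _ => key r s))]
  rw [Finset.sum_eq_single a (fun r _ hr => Finset.sum_eq_zero fun s _ => if_neg fun h => hr h.1.symm)
      (fun h => absurd (Finset.mem_univ a) h),
    Finset.sum_eq_single b (fun s _ hs => if_neg fun h => hs h.2.symm) (fun h => absurd (Finset.mem_univ b) h),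
    if_pos ⟨rfl, rfl⟩]
  field_simp

variable {p : ℕ} {M : Ideal AlgInt} {hM : IsPModular p M} {G : Type u} [Group G] [Fintype G]
  {V : Type} [AddCommGroup V] [Module (RF hM) V] [Module.Finite (RF hM) V]
  {K : Subgroup G} [K.Normal] [Fintype K] {n q : ℕ} {A : K →* Matrix (Fin n) (Fin n) (plc hM)}

/-- The invariant case of the Fong–Swan theorem. -/
theorem liftable_stable {σ : Representation (RF hM) G V}
    (hirr : ∀ U : Submodule (RF hM) V, (∀ g : G, U ≤ U.comap (σ g)) → U = ⊥ ∨ U = ⊤)
    (hV : finrank (RF hM) V ≠ 0) (hK : ¬ p ∣ Nat.card K) (hA : Schur A (q : plc hM)) (hnq : n * q = Nat.card K)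
    (he : idem (red hM A) (q : RF hM) (σ.comp K.subtype) = 1)
    (ih : ∀ (H : Type u) [Group H] [Fintype H] (Z : Subgroup H) [Z.Normal], Z ≤ Subgroup.center H →
      ¬ p ∣ Nat.card Z → Nonempty (H ⧸ Z ≃* G ⧸ K) →
      ∀ (W : Submodule (RF hM) V) (τ : Representation (RF hM) H W),
        (∀ U : Submodule (RF hM) W, (∀ x, U ≤ U.comap (τ x)) → U = ⊥ ∨ U = ⊤) → finrank (RF hM) W ≠ 0 →
        Liftable hM τ) : Liftable hM σ := by
  classical
  have hcard : Nat.card K ≠ 0 := Nat.card_pos.ne'
  have hn : n ≠ 0 := fun h => hcard (by rw [← hnq, h, zero_mul])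
  have hq : q ≠ 0 := fun h => hcard (by rw [← hnq, h, mul_zero])
  have hc : (q : RF hM) ≠ 0 := natCast_ne_zero hM fun h => hK (hnq ▸ dvd_mul_of_dvd_right h n)
  have hAk : Schur (red hM A) (q : RF hM) := by simpa using schur_red hM hA
  set i₀ : Fin n := ⟨0, Nat.pos_of_ne_zero hn⟩
  haveI : Nontrivial V := Module.nontrivial_of_finrank_pos (R := RF hM) (Nat.pos_of_ne_zero hV)
  -- intertwiners exist
  have hint : ∀ g : G, ∃ T : Matrix (Fin n) (Fin n) (RF hM), IsUnit T.det ∧
      ∀ y, T * red hM A y = red hM A (MulAut.conjNormal g y) * T := fun g => by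
    have h1 := conj_idem (A := red hM A) (c := (q : RF hM)) σ g⁻¹
    rw [he, mul_one, inv_inv, ← map_mul, inv_mul_cancel, map_one] at h1
    refine exists_intertwiner (σ.comp K.subtype) hAk (schur_comp hAk (MulAut.conjNormal g : K ≃* K)) hc ?_
    rw [he, ← h1, mul_one]
    exact one_ne_zero
  have hsurj := twist_surjective hK hn hint
  haveI := twist_finite hA hq i₀
  haveI := twistIncl_normal A
  haveI : Fintype (twist A) := Fintype.ofFinite _
  set U := fun a b => unit (red hM A) (q : RF hM) (σ.comp K.subtype) a b with hU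
  set W := LinearMap.range (U i₀ i₀) with hW
  have hUU : ∀ a b a' b', U a b * U a' b' = if b = a' then U a b' else 0 := unit_mul _ hAk hc
  have hmem : ∀ b v, U i₀ b v ∈ W := fun b v => ⟨U i₀ b v, by rw [← Module.End.mul_apply, hUU, if_pos rfl]⟩
  have hfix : ∀ w ∈ W, U i₀ i₀ w = w := by
    rintro _ ⟨v, rfl⟩
    rw [← Module.End.mul_apply, hUU, if_pos rfl]
  have hsum : ∀ v, ∑ a, U a i₀ (U i₀ a v) = v := fun v => by
    conv_rhs => rw [← Module.End.one_apply (R := RF hM) v, ← he, idem, LinearMap.sum_apply]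
    exact Finset.sum_congr rfl fun a _ => by rw [← Module.End.mul_apply, hUU, if_pos rfl]
  let Ψ : V ≃ₗ[RF hM] (Fin n → W) :=
    { toFun := fun v a => ⟨U i₀ a v, hmem a v⟩
      map_add' := fun x y => by funext a; exact Subtype.ext (map_add _ x y)
      map_smul' := fun t x => by funext a; exact Subtype.ext (map_smul _ t x)
      invFun := fun f => ∑ a, U a i₀ (f a : V)
      left_inv := hsum
      right_inv := fun f => by
        funext b
        refine Subtype.ext ?_
        show U i₀ b (∑ a, U a i₀ (f a : V)) = f b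
        rw [map_sum, Finset.sum_eq_single b (fun a _ ha => by
            rw [← Module.End.mul_apply, hUU, if_neg (Ne.symm ha), LinearMap.zero_apply])
          (fun h => absurd (Finset.mem_univ b) h), ← Module.End.mul_apply, hUU, if_pos rfl]
        exact hfix _ (f b).2 }
  let S : G →* Module.End (RF hM) (Fin n → W) :=
    (Ψ.conjAlgEquiv (RF hM)).toMonoidHom.comp σ
  have hS : ∀ g f, S g f = Ψ (σ g (Ψ.symm f)) := fun g f => rfl
  have hSK : ∀ y : K, S y = act (red hM A y) := fun y => LinearMap.ext fun f => by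
    obtain ⟨v, rfl⟩ := Ψ.surjective f
    funext b
    rw [hS, Ψ.symm_apply_apply, act_apply]
    refine Subtype.ext ?_
    rw [Submodule.coe_sum]
    show U i₀ b (σ y v) = ∑ r, red hM A y b r • U i₀ r v
    rw [← Module.End.mul_apply, show U i₀ b * σ y = U i₀ b * (σ.comp K.subtype) y from rfl, hU, unit_sigma,
      LinearMap.sum_apply]
    rfl
  let rT : twist A →* Matrix (Fin n) (Fin n) (RF hM) := (res hM).mapMatrix.toMonoidHom.comp (twistMat A)
  have hrT : ∀ (x : twist A) y, rT x * red hM A y = red hM A (MulAut.conjNormal (twistProj A x) y) * rT x :=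
    fun x y => by
    show (res hM).mapMatrix _ * (res hM).mapMatrix _ = (res hM).mapMatrix _ * (res hM).mapMatrix _
    rw [← map_mul, ← map_mul]
    exact congrArg _ (x.2.1 y)
  let R : twist A → Module.End (RF hM) (Fin n → W) := fun x => S (twistProj A x) * act (rT x⁻¹)
  have hRA : ∀ x z, Commute (R x) (act (red hM A z)) := fun x z => by
    show S (twistProj A x) * act (rT x⁻¹) * act (red hM A z) = act (red hM A z) * (S (twistProj A x) * act (rT x⁻¹))
    rw [mul_assoc, ← map_mul act (rT x⁻¹), hrT, map_mul act, ← mul_assoc, ← hSK, ← hSK z, ← map_mul S, map_inv]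
    rw [show twistProj A x * ((MulAut.conjNormal (twistProj A x)⁻¹ z : K) : G) = (z : G) * twistProj A x by
      simp [MulAut.conjNormal_apply, mul_assoc], map_mul, mul_assoc]
  have hR : ∀ x X, Commute (R x) (act X) := fun x X => by
    rw [eq_sum_of_schur hAk hc X]
    simp only [map_smul, map_sum]
    exact (Commute.sum_right _ _ _ fun y _ => (hRA x y).smul_right _).smul_right _
  have hR1 : ∀ x, S (twistProj A x) = R x * act (rT x) := fun x => by
    show _ = S (twistProj A x) * act (rT x⁻¹) * act (rT x)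
    rw [mul_assoc, ← map_mul act, ← map_mul rT, inv_mul_cancel, map_one rT, map_one, mul_one]
  have hRmul : ∀ x x', R (x * x') = R x * R x' := fun x x' => by
    show S (twistProj A (x * x')) * act (rT (x * x')⁻¹) = S (twistProj A x) * act (rT x⁻¹) * R x'
    rw [mul_assoc _ _ (R x'), ← (hR x' (rT x⁻¹)).eq]
    show _ = S (twistProj A x) * (S (twistProj A x') * act (rT x'⁻¹) * act (rT x⁻¹))
    rw [map_mul, map_mul S, mul_inv_rev, map_mul rT, map_mul act, mul_assoc, mul_assoc]
  have hRone : R 1 = 1 := by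
    show S (twistProj A 1) * act (rT 1⁻¹) = 1
    rw [map_one, map_one, inv_one, map_one rT, map_one, mul_one]
  let τ : Representation (RF hM) (twist A) W :=
    { toFun := fun x => (LinearMap.proj i₀).comp ((R x).comp (LinearMap.single (RF hM) (fun _ => W) i₀))
      map_one' := LinearMap.ext fun w => by simp [hRone]
      map_mul' := fun x x' => LinearMap.ext fun w => by
        show R (x * x') (Pi.single i₀ w) i₀ = R x (Pi.single i₀ (R x' (Pi.single i₀ w) i₀)) i₀
        have h1 := LinearMap.congr_fun (hR x (Matrix.single i₀ i₀ 1)).eq (R x' (Pi.single i₀ w))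
        change R x (act (Matrix.single i₀ i₀ 1) (R x' (Pi.single i₀ w))) =
          act (Matrix.single i₀ i₀ 1) (R x (R x' (Pi.single i₀ w))) at h1
        rw [act_single, act_single] at h1
        rw [hRmul, Module.End.mul_apply, h1, Pi.single_eq_same] }
  have hRτ : ∀ x f a, R x f a = τ x (f a) := fun x f a => by
    have h1 := LinearMap.congr_fun (hR x (Matrix.single i₀ a 1)).eq f
    change R x (act (Matrix.single i₀ a 1) f) = act (Matrix.single i₀ a 1) (R x f) at h1
    rw [act_single, act_single] at h1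
    show _ = R x (Pi.single i₀ (f a)) i₀
    rw [h1, Pi.single_eq_same]
  have hτirr : ∀ U' : Submodule (RF hM) W, (∀ x, U' ≤ U'.comap (τ x)) → U' = ⊥ ∨ U' = ⊤ := by
    intro U' hU'
    rcases hirr ((Submodule.pi Set.univ fun _ => U').comap Ψ.toLinearMap) (fun g v hv => by
      obtain ⟨x, rfl⟩ := hsurj g
      intro a _
      show Ψ (σ (twistProj A x) v) a ∈ U'
      rw [← Ψ.symm_apply_apply v, ← hS, hR1, Module.End.mul_apply, hRτ, act_apply]
      exact hU' x (U'.sum_mem fun r _ => U'.smul_mem _ (hv r trivial))) with h | h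
    · left
      refine eq_bot_iff.2 fun u hu => ?_
      have h1 : Ψ.symm (Pi.single i₀ u) ∈ (Submodule.pi Set.univ fun _ => U').comap Ψ.toLinearMap := by
        intro a _
        show Ψ (Ψ.symm (Pi.single i₀ u)) a ∈ U'
        rw [Ψ.apply_symm_apply]
        rcases eq_or_ne a i₀ with rfl | ha
        · rwa [Pi.single_eq_same]
        · rw [Pi.single_eq_of_ne ha]; exact zero_mem _
      rw [h, Submodule.mem_bot, LinearEquiv.map_eq_zero_iff] at h1
      exact (Submodule.mem_bot _).2 (by simpa using congrFun h1 i₀)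
    · right
      refine eq_top_iff.2 fun w _ => ?_
      have h1 : Ψ.symm (Pi.single i₀ w) ∈ (Submodule.pi Set.univ fun _ => U').comap Ψ.toLinearMap :=
        h ▸ Submodule.mem_top
      have h2 : Ψ (Ψ.symm (Pi.single i₀ w)) i₀ ∈ U' := h1 i₀ trivial
      rwa [Ψ.apply_symm_apply, Pi.single_eq_same] at h2
  have hWdim : finrank (RF hM) W ≠ 0 := fun h => hV (by
    rw [Ψ.finrank_eq, Module.finrank_pi_fintype, h]; simp)
  have hτker : (twistIncl A).range ≤ MonoidHom.ker τ := by
    rintro _ ⟨y, rfl⟩
    refine MonoidHom.mem_ker.2 (LinearMap.ext fun w => ?_)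
    have h1 : R (twistIncl A y) = 1 := by
      show S (y : G) * act (rT (twistIncl A y)⁻¹) = 1
      rw [hSK, ← map_mul act, show red hM A y = rT (twistIncl A y) from rfl, ← map_mul rT, mul_inv_cancel,
        map_one rT, map_one]
    show R (twistIncl A y) (Pi.single i₀ w) i₀ = w
    rw [h1, Module.End.one_apply, Pi.single_eq_same]
  -- descend to the quotient
  let f : twist A ⧸ (twistIncl A).range →* G ⧸ K :=
    QuotientGroup.lift _ ((QuotientGroup.mk' K).comp (twistProj A)) (by
      rintro _ ⟨y, rfl⟩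
      exact (QuotientGroup.eq_one_iff _).2 y.2)
  have hf : Function.Surjective f := fun z => by
    obtain ⟨g, rfl⟩ := QuotientGroup.mk'_surjective K z
    obtain ⟨x, rfl⟩ := hsurj g
    exact ⟨x, rfl⟩
  have hkerspec : ∀ z ∈ f.ker, ∃ x ∈ (twistProj A).ker, z = QuotientGroup.mk x := by
    intro z hz
    obtain ⟨x, rfl⟩ := QuotientGroup.mk'_surjective _ z
    have hx : twistProj A x ∈ K := (QuotientGroup.eq_one_iff _).1 hz
    refine ⟨(twistIncl A ⟨_, hx⟩)⁻¹ * x, ?_, ?_⟩
    · show (twistProj A x)⁻¹ * twistProj A x = 1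
      exact inv_mul_cancel _
    · rw [QuotientGroup.mk'_apply, QuotientGroup.eq]
      rw [← mul_assoc]
      have := twistIncl_normal A
      exact this.conj_mem' _ (inv_mem ⟨_, rfl⟩) x
  have hN : ¬ p ∣ n * Nat.card K := fun h =>
    (hM.1.dvd_mul.1 h).elim (fun h => hK (hnq ▸ dvd_mul_of_dvd_left h q)) hK
  have hZc : f.ker ≤ Subgroup.center _ := by
    intro z hz
    obtain ⟨x, hx, rfl⟩ := hkerspec z hz
    refine Subgroup.mem_center_iff.2 fun w => ?_
    obtain ⟨y, rfl⟩ := QuotientGroup.mk'_surjective _ w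
    show (QuotientGroup.mk y : twist A ⧸ (twistIncl A).range) * QuotientGroup.mk x =
      QuotientGroup.mk x * QuotientGroup.mk y
    rw [← QuotientGroup.mk_mul, ← QuotientGroup.mk_mul, Subgroup.mem_center_iff.1 (ker_le_center hA hq i₀ hx) y]
  have hZp : ¬ p ∣ Nat.card f.ker := fun h => by
    haveI : Fact p.Prime := ⟨hM.1⟩
    obtain ⟨z, hz⟩ := exists_prime_orderOf_dvd_card' p h
    obtain ⟨x, hx, hzx⟩ := hkerspec z.1 z.2
    refine hN (hz ▸ orderOf_dvd_of_pow_eq_one (Subtype.ext ?_))
    rw [SubgroupClass.coe_pow, hzx, ← QuotientGroup.mk_pow, (ker_spec hA hq i₀ hx).2]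
    rfl
  haveI : Fintype (twist A ⧸ (twistIncl A).range) := Fintype.ofFinite _
  obtain ⟨m, B, u, hB⟩ := ih _ f.ker hZc hZp ⟨QuotientGroup.quotientKerEquivOfSurjective f hf⟩ W
    (QuotientGroup.lift _ τ hτker) (fun U' hU' => hτirr U' fun x => hU' (QuotientGroup.mk x)) hWdim
  refine liftable_descend (twistProj A) hsurj (fun x hx => ⟨_, hN, (ker_spec hA hq i₀ hx).2⟩) ?_
  let C : twist A →* Matrix (Fin n × Fin m) (Fin n × Fin m) (plc hM) :=
    { toFun := fun x => twistMat A x ⊗ₖ B (QuotientGroup.mk x)
      map_one' := by rw [map_one, QuotientGroup.mk_one, map_one, Matrix.one_kronecker_one]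
      map_mul' := fun x x' => by rw [map_mul, QuotientGroup.mk_mul, map_mul, Matrix.mul_kronecker_mul] }
  let e : (Fin n × Fin m → RF hM) ≃ₗ[RF hM] V :=
    ((LinearEquiv.curry (RF hM) (RF hM) (Fin n) (Fin m)).trans (LinearEquiv.piCongrRight fun _ => u)).trans Ψ.symm
  refine liftable_of_matrix hM _ C e fun x v => Ψ.injective ?_
  have hBu : ∀ w : Fin m → RF hM, τ x (u w) = u ((red hM B (QuotientGroup.mk x)).mulVec w) := fun w => by
    have h1 := LinearMap.congr_fun (hB (QuotientGroup.mk x)) (u w)
    rw [LinearEquiv.conj_apply_apply, u.symm_apply_apply] at h1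
    exact h1
  show Ψ (σ (twistProj A x) (Ψ.symm fun a => u fun b => v (a, b))) =
    Ψ (Ψ.symm fun a => u fun b => ((red hM C x).mulVec v) (a, b))
  rw [← hS, hR1, Module.End.mul_apply, Ψ.apply_symm_apply]
  funext a
  rw [hRτ, act_apply, map_sum]
  rw [Finset.sum_congr rfl fun r _ =>
    (show τ x (rT x a r • u fun b => v (r, b)) = u (rT x a r • (red hM B (QuotientGroup.mk x)).mulVec fun b => v (r, b)) by
      rw [map_smul, hBu, map_smul]), ← map_sum]
  congr 1
  funext b
  rw [Finset.sum_apply, Matrix.mulVec, dotProduct, Fintype.sum_prod_type]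
  refine Finset.sum_congr rfl fun r _ => ?_
  rw [Pi.smul_apply, Matrix.mulVec, dotProduct, smul_eq_mul, Finset.mul_sum]
  refine Finset.sum_congr rfl fun s _ => ?_
  show res hM (twistMat A x a r) * (res hM (B (QuotientGroup.mk x) b s) * v (r, s)) =
    res hM (twistMat A x a r * B (QuotientGroup.mk x) b s) * v (r, s)
  rw [map_mul, mul_assoc]

end CfsgLib.FongSwan
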