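import Cfsg.Agent.Blocks.FongSwan.Induced
import Cfsg.Agent.Blocks.FongSwan.Descend

/-!
# The finite group of compatible pairs attached to an invariant representation
-/

set_option autoImplicit false
set_option linter.unusedSectionVars false
set_option linter.style.haveILetI false

namespace CfsgLib.FongSwan

open Cfsg CfsgLib CfsgLib.Blocks CfsgLib.BrauerChar Module

variable {p : ℕ} {M : Ideal AlgInt} {hM : IsPModular p M} {G : Type*} [Group G] [Fintype G]
  {K : Subgroup G} [K.Normal] [Fintype K] {n : ℕ}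
  (A : K →* Matrix (Fin n) (Fin n) (plc hM))

/-- The pairs `(g, T)` with `T` intertwining `A` and its conjugate by `g`, with determinant a root of unity. -/
noncomputable def twist : Subgroup (G × (Matrix (Fin n) (Fin n) (plc hM))ˣ) where
  carrier := {x | (∀ y : K, (x.2 : Matrix (Fin n) (Fin n) (plc hM)) * A y = A (MulAut.conjNormal x.1 y) * x.2) ∧
    Matrix.det (x.2 : Matrix (Fin n) (Fin n) (plc hM)) ^ Nat.card K = 1}
  one_mem' := ⟨fun y => by simp, by simp⟩
  mul_mem' := fun {a b} ha hb => ⟨fun y => by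
    simp only [Prod.fst_mul, Prod.snd_mul, Units.val_mul, map_mul, MulAut.mul_apply]
    rw [mul_assoc, hb.1, ← mul_assoc, ha.1, mul_assoc],
    by simp only [Prod.snd_mul, Units.val_mul, Matrix.det_mul, mul_pow, ha.2, hb.2, mul_one]⟩
  inv_mem' := fun {a} ha => ⟨fun y => by
    have h := ha.1 (MulAut.conjNormal a.1⁻¹ y)
    rw [← MulAut.mul_apply, ← map_mul, mul_inv_cancel, map_one, MulAut.one_apply] at h
    simp only [Prod.fst_inv, Prod.snd_inv]
    rw [Units.inv_mul_eq_iff_eq_mul, ← mul_assoc, h, mul_assoc, Units.mul_inv, mul_one], by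
    have h1 : Matrix.det ((a.2⁻¹ : (Matrix (Fin n) (Fin n) (plc hM))ˣ) : Matrix (Fin n) (Fin n) (plc hM)) *
        Matrix.det (a.2 : Matrix (Fin n) (Fin n) (plc hM)) = 1 := by
      rw [← Matrix.det_mul, Units.inv_mul, Matrix.det_one]
    have h2 := congrArg (· ^ Nat.card K) h1
    simp only [mul_pow, ha.2, mul_one, one_pow] at h2
    exact h2⟩

/-- The projection to the group. -/
noncomputable def twistProj : twist A →* G := (MonoidHom.fst _ _).comp (twist A).subtype

/-- The matrix part. -/
noncomputable def twistMat : twist A →* Matrix (Fin n) (Fin n) (plc hM) :=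
  (Units.coeHom _).comp ((MonoidHom.snd _ _).comp (twist A).subtype)

/-- The normal subgroup copy of `K`. -/
noncomputable def twistIncl : K →* twist A :=
  MonoidHom.codRestrict (K.subtype.prod A.toHomUnits) (twist A) fun y => by
    have hd : Matrix.det (A y) ^ Nat.card K = 1 := by
      rw [← Matrix.det_pow, ← map_pow, pow_card_eq_one', map_one, Matrix.det_one]
    refine ⟨fun z => ?_, hd⟩
    show A y * A z = A (MulAut.conjNormal (y : G) z) * A y
    rw [← map_mul, ← map_mul]
    refine congrArg A (Subtype.ext ?_)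
    simp [MulAut.conjNormal_apply]

theorem twistIncl_normal : (twistIncl A).range.Normal := by
  refine ⟨fun a ha x => ?_⟩
  obtain ⟨y, rfl⟩ := ha
  refine ⟨MulAut.conjNormal x.1.1 y, eq_mul_inv_of_mul_eq (Subtype.ext (Prod.ext ?_ ?_))⟩
  · show ((MulAut.conjNormal x.1.1 y : K) : G) * x.1.1 = x.1.1 * (y : G)
    simp [MulAut.conjNormal_apply]
  · refine Units.ext ?_
    exact (x.2.1 y).symm

variable {A} {q : ℕ}

theorem scalar_of_commute (hA : Schur A (q : plc hM)) (hq : q ≠ 0) {T : Matrix (Fin n) (Fin n) (plc hM)}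
    (hT : ∀ y, T * A y = A y * T) (i : Fin n) : T = T i i • 1 := by
  haveI : CharZero (plc hM) := ⟨fun a b h => Nat.cast_injective (R := ℂ) (by simpa using congrArg (fun z : plc hM => (z : ℂ)) h)⟩
  have hq' : (q : plc hM) ≠ 0 := Nat.cast_ne_zero.2 hq
  refine Matrix.ext fun a d => ?_
  refine mul_left_cancel₀ hq' ?_
  have h : ∑ y : K, (T * A y) a i * A y⁻¹ i d = ∑ y : K, (A y * T) a i * A y⁻¹ i d := by simp only [hT]
  simp only [Matrix.mul_apply, Finset.sum_mul] at h
  have hl : ∀ r, (∑ y : K, T a r * A y r i * A y⁻¹ i d) = if r = d then T a r * q else 0 := fun r => by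
    rw [Finset.sum_congr rfl fun y _ => mul_assoc (T a r) _ _, ← Finset.mul_sum, hA]
    simp
  have hr : ∀ r, (∑ y : K, A y a r * T r i * A y⁻¹ i d) = if r = i then (if a = d then T r i * q else 0) else 0 :=
    fun r => by
    rw [Finset.sum_congr rfl fun y _ => (by ring : A y a r * T r i * A y⁻¹ i d = T r i * (A y a r * A y⁻¹ i d)),
      ← Finset.mul_sum, hA]
    by_cases h1 : a = d <;> by_cases h2 : r = i <;> simp [h1, h2]
  replace h := Finset.sum_comm.trans (h.trans Finset.sum_comm)
  simp only [hl, hr, Finset.sum_ite_eq', Finset.mem_univ, if_true] at h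
  rw [mul_comm, h, Matrix.smul_apply, Matrix.one_apply]
  split_ifs <;> simp [mul_comm]

theorem ker_spec (hA : Schur A (q : plc hM)) (hq : q ≠ 0) (i : Fin n) {x : twist A} (hx : x ∈ (twistProj A).ker) :
    twistMat A x = twistMat A x i i • 1 ∧ x ^ (n * Nat.card K) = 1 := by
  have h1 : x.1.1 = 1 := hx
  have hs : twistMat A x = twistMat A x i i • 1 := scalar_of_commute hA hq (fun y => by
    have := x.2.1 y
    rw [h1, map_one, MulAut.one_apply] at this
    exact this) i
  refine ⟨hs, Subtype.ext (Prod.ext ?_ (Units.ext ?_))⟩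
  · show x.1.1 ^ _ = 1
    rw [h1, one_pow]
  · show (twistMat A x) ^ (n * Nat.card K) = 1
    have hdet : Matrix.det (twistMat A x) ^ Nat.card K = 1 := x.2.2
    rw [hs, Matrix.det_smul, Matrix.det_one, mul_one, Fintype.card_fin, ← pow_mul] at hdet
    rw [hs, smul_pow, one_pow, hdet, one_smul]

theorem ker_le_center (hA : Schur A (q : plc hM)) (hq : q ≠ 0) (i : Fin n) :
    (twistProj A).ker ≤ Subgroup.center (twist A) := by
  intro x hx
  refine Subgroup.mem_center_iff.2 fun y => Subtype.ext (Prod.ext ?_ (Units.ext ?_))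
  · show y.1.1 * x.1.1 = x.1.1 * y.1.1
    rw [show x.1.1 = 1 from hx, mul_one, one_mul]
  · show twistMat A y * twistMat A x = twistMat A x * twistMat A y
    rw [(ker_spec hA hq i hx).1, mul_smul_comm, smul_mul_assoc, mul_one, one_mul]

theorem twist_finite (hA : Schur A (q : plc hM)) (hq : q ≠ 0) (i : Fin n) : Finite (twist A) := by
  have hN : 0 < n * Nat.card K := Nat.mul_pos (i.pos) Nat.card_pos
  haveI : Finite (twistProj A).ker := by
    have hfin : {s : plc hM | s ^ (n * Nat.card K) = 1}.Finite :=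
      (Polynomial.nthRoots (n * Nat.card K) (1 : plc hM)).toFinset.finite_toSet.subset fun s hs =>
        Finset.mem_coe.2 (Multiset.mem_toFinset.2 ((Polynomial.mem_nthRoots hN).2 hs))
    haveI := hfin.to_subtype
    refine Finite.of_injective (β := {s : plc hM | s ^ (n * Nat.card K) = 1})
      (fun x => ⟨twistMat A x.1 i i, ?_⟩) fun x y h => ?_
    · have h := congrArg (fun z => twistMat A z) (ker_spec hA hq i x.2).2
      simp only [map_pow, map_one] at h
      rw [(ker_spec hA hq i x.2).1, smul_pow, one_pow] at h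
      have := congrFun (congrFun h i) i
      simpa using this
    · have h' : twistMat A x.1 i i = twistMat A y.1 i i := congrArg Subtype.val h
      refine Subtype.ext (Subtype.ext (Prod.ext ((x.2 : x.1.1.1 = 1).trans (y.2 : y.1.1.1 = 1).symm) (Units.ext ?_)))
      show twistMat A x.1 = twistMat A y.1
      rw [(ker_spec hA hq i x.2).1, (ker_spec hA hq i y.2).1, h']
  haveI : Finite (twist A ⧸ (twistProj A).ker) := Finite.of_injective _ (QuotientGroup.kerLift_injective (twistProj A))
  exact Finite.of_equiv _ (Subgroup.groupEquivQuotientProdSubgroup (s := (twistProj A).ker)).symm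

/-- Intertwiners modulo `M` lift. -/
theorem twist_surjective (hK : ¬ p ∣ Nat.card K) (hn : n ≠ 0)
    (h : ∀ g : G, ∃ T : Matrix (Fin n) (Fin n) (RF hM), IsUnit T.det ∧
      ∀ y, T * red hM A y = red hM A (MulAut.conjNormal g y) * T) : Function.Surjective (twistProj A) := by
  intro g
  obtain ⟨T₀, hT₀, hT₀i⟩ := h g
  obtain ⟨T₁, hT₁⟩ : ∃ T₁ : Matrix (Fin n) (Fin n) (plc hM), (res hM).mapMatrix T₁ = T₀ := by
    choose f hf using fun a : RF hM => (IsLocalRing.residue_surjective (R := plc hM)) a
    exact ⟨T₀.map f, Matrix.ext fun a b => hf _⟩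
  set T₂ := ∑ y : K, A (MulAut.conjNormal g y)⁻¹ * T₁ * A y with hT₂
  have hcomm : ∀ x, T₂ * A x = A (MulAut.conjNormal g x) * T₂ := fun x => by
    rw [hT₂, Finset.sum_mul, Finset.mul_sum]
    refine Fintype.sum_equiv (Equiv.mulRight x) _ _ fun y => ?_
    show _ = A _ * (A (MulAut.conjNormal g (y * x))⁻¹ * T₁ * A (y * x))
    rw [← mul_assoc (A _), ← mul_assoc (A _), ← map_mul,
      show MulAut.conjNormal g x * (MulAut.conjNormal g (y * x))⁻¹ = (MulAut.conjNormal g y)⁻¹ by
        rw [map_mul (MulAut.conjNormal g : K ≃* K)]; group,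
      map_mul A y x, mul_assoc]
  have hred : (res hM).mapMatrix T₂ = (Nat.card K : RF hM) • T₀ := by
    rw [hT₂, map_sum, Finset.sum_congr rfl fun y _ => (show (res hM).mapMatrix
      (A (MulAut.conjNormal g y)⁻¹ * T₁ * A y) = T₀ from by
        rw [map_mul, map_mul, hT₁, mul_assoc]
        show red hM A _ * (T₀ * red hM A y) = T₀
        rw [hT₀i, ← mul_assoc, ← map_mul, inv_mul_cancel, map_one, one_mul]),
      Finset.sum_const, Finset.card_univ, Nat.card_eq_fintype_card, Nat.cast_smul_eq_nsmul]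
  have hdet : IsUnit T₂.det := by
    rw [← IsLocalRing.residue_ne_zero_iff_isUnit]
    show res hM T₂.det ≠ 0
    rw [RingHom.map_det, hred, Matrix.det_smul]
    exact mul_ne_zero (pow_ne_zero _ (natCast_ne_zero hM hK)) hT₀.ne_zero
  obtain ⟨d, hd⟩ := hdet.exists_left_inv
  obtain ⟨z, hz⟩ := IsAlgClosed.exists_pow_nat_eq (d : ℂ) (Nat.pos_of_ne_zero hn)
  have hzmem : z ∈ plc hM := by
    rcases (plc hM).mem_or_inv_mem z with h | h
    · exact h
    · rcases eq_or_ne z 0 with rfl | h0
      · exact zero_mem _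
      · have : z = (d : ℂ) * z⁻¹ ^ (n - 1) := by
          conv_rhs => rw [← hz, show n = n - 1 + 1 from (Nat.sub_add_cancel (Nat.pos_of_ne_zero hn)).symm]
          rw [pow_succ, Nat.add_sub_cancel, inv_pow, mul_comm (z ^ _), mul_assoc,
            mul_inv_cancel₀ (pow_ne_zero _ h0), mul_one]
        rw [this]
        exact mul_mem d.2 (pow_mem h _)
  set s : plc hM := ⟨z, hzmem⟩
  have hs : Matrix.det (s • T₂) = 1 := by
    rw [Matrix.det_smul, Fintype.card_fin, show s ^ n = d from Subtype.ext (by simpa using hz), hd]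
  refine ⟨⟨(g, Matrix.nonsingInvUnit (s • T₂) (hs ▸ isUnit_one)), fun y => ?_, ?_⟩, rfl⟩
  · show (s • T₂) * A y = A _ * (s • T₂)
    rw [smul_mul_assoc, hcomm, mul_smul_comm]
  · show Matrix.det (s • T₂) ^ _ = 1
    rw [hs, one_pow]

end CfsgLib.FongSwan
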