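import Cfsg.Agent.Blocks.FongSwan.Lift

/-!
# Matrix units of an absolutely irreducible representation of a subgroup acting on a module
-/

set_option autoImplicit false
set_option linter.unusedSectionVars false
set_option linter.style.haveILetI false

namespace CfsgLib.FongSwan

open Module

variable {F : Type*} [Field F] {K : Type*} [Group K] [Fintype K] {ι : Type*} [Fintype ι] [DecidableEq ι]

variable {V : Type*} [AddCommGroup V] [Module F V]

/-- The matrix units attached to `A`. -/
noncomputable def unit (A : K →* Matrix ι ι F) (c : F) (σ : Representation F K V) (a b : ι) : Module.End F V :=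
  c⁻¹ • ∑ y : K, A y⁻¹ b a • σ y

/-- The idempotent attached to `A`. -/
noncomputable def idem (A : K →* Matrix ι ι F) (c : F) (σ : Representation F K V) : Module.End F V :=
  ∑ a, unit A c σ a a

variable {A : K →* Matrix ι ι F} {c : F} (σ : Representation F K V)

theorem sigma_unit (x : K) (a b : ι) : σ x * unit A c σ a b = ∑ r, A x r a • unit A c σ r b := by
  simp only [unit, Finset.mul_sum, mul_smul_comm, Finset.smul_sum, ← map_mul]
  rw [Finset.sum_comm]
  refine Fintype.sum_equiv (Equiv.mulLeft x) _ _ fun y => ?_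
  show _ = ∑ r, A x r a • c⁻¹ • A (x * y)⁻¹ b r • σ (x * y)
  simp only [smul_smul, ← Finset.sum_smul]
  congr 1
  rw [show y⁻¹ = (x * y)⁻¹ * x by group, map_mul, Matrix.mul_apply, Finset.mul_sum]
  exact Finset.sum_congr rfl fun r _ => by ring

theorem unit_sigma (x : K) (a b : ι) : unit A c σ a b * σ x = ∑ r, A x b r • unit A c σ a r := by
  simp only [unit, Finset.sum_mul, smul_mul_assoc, Finset.smul_sum, ← map_mul]
  rw [Finset.sum_comm]
  refine Fintype.sum_equiv (Equiv.mulRight x) _ _ fun y => ?_
  show _ = ∑ r, A x b r • c⁻¹ • A (y * x)⁻¹ r a • σ (y * x)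
  simp only [smul_smul, ← Finset.sum_smul]
  congr 1
  rw [show y⁻¹ = x * (y * x)⁻¹ by group, map_mul, Matrix.mul_apply, Finset.mul_sum]
  exact Finset.sum_congr rfl fun r _ => by ring

theorem unit_mul (hA : Schur A c) (hc : c ≠ 0) (a b a' b' : ι) :
    unit A c σ a b * unit A c σ a' b' = if b = a' then unit A c σ a b' else 0 := by
  conv_lhs => rw [unit, smul_mul_assoc, Finset.sum_mul]
  simp only [smul_mul_assoc, sigma_unit, Finset.smul_sum, smul_smul]
  rw [Finset.sum_comm]
  simp only [← Finset.sum_smul]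
  have h : ∀ r, (∑ y : K, c⁻¹ * (A y⁻¹ b a * A y r a')) = if r = a ∧ a' = b then 1 else 0 := fun r => by
    rw [← Finset.mul_sum, Finset.sum_congr rfl (fun y _ => mul_comm (A y⁻¹ b a) (A y r a')), hA]
    split_ifs
    · exact inv_mul_cancel₀ hc
    · exact mul_zero _
  simp only [mul_assoc, h]
  rw [Finset.sum_eq_single a (fun r _ hr => by rw [if_neg (fun hh => hr hh.1), zero_smul])
    (fun hh => absurd (Finset.mem_univ a) hh)]
  by_cases hb : b = a'
  · rw [if_pos ⟨rfl, hb.symm⟩, if_pos hb, one_smul]
  · rw [if_neg (fun hh => hb hh.2.symm), if_neg hb, zero_smul]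

theorem unit_idem (hA : Schur A c) (hc : c ≠ 0) (a b : ι) : unit A c σ a b * idem A c σ = unit A c σ a b := by
  simp [idem, Finset.mul_sum, unit_mul σ hA hc]

theorem idem_unit (hA : Schur A c) (hc : c ≠ 0) (a b : ι) : idem A c σ * unit A c σ a b = unit A c σ a b := by
  simp [idem, Finset.sum_mul, unit_mul σ hA hc]

theorem idem_idem (hA : Schur A c) (hc : c ≠ 0) : idem A c σ * idem A c σ = idem A c σ := by
  rw [idem]
  conv_rhs => rw [Finset.sum_congr rfl fun a _ => (unit_idem σ hA hc a a).symm]
  rw [← Finset.sum_mul]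
  rfl

theorem sigma_idem (x : K) : σ x * idem A c σ = idem A c σ * σ x := by
  simp only [idem, Finset.mul_sum, Finset.sum_mul, sigma_unit, unit_sigma]
  rw [Finset.sum_comm]

theorem idem_eq_trace : idem A c σ = c⁻¹ • ∑ y : K, (A y⁻¹).trace • σ y := by
  simp only [idem, unit, ← Finset.smul_sum]
  congr 1
  rw [Finset.sum_comm]
  exact Finset.sum_congr rfl fun y _ => by rw [← Finset.sum_smul]; rfl

theorem schur_irreducible (hA : Schur A c) (hc : c ≠ 0) (W : Submodule F (ι → F))
    (hW : ∀ y, ∀ w ∈ W, (A y).mulVec w ∈ W) : W = ⊥ ∨ W = ⊤ := by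
  refine or_iff_not_imp_left.2 fun hb => ?_
  obtain ⟨w, hw, hw0⟩ := W.ne_bot_iff.1 hb
  obtain ⟨b, hb'⟩ := Function.ne_iff.1 hw0
  refine eq_top_iff.2 fun v _ => ?_
  have key : ∀ a, (Pi.single a 1 : ι → F) ∈ W := fun a => by
    have hsum : ∑ y : K, A y⁻¹ b a • (A y).mulVec w = (c * w b) • (Pi.single a 1 : ι → F) := by
      funext r
      simp only [Finset.sum_apply, Pi.smul_apply, Matrix.mulVec, dotProduct, smul_eq_mul, Finset.mul_sum]
      rw [Finset.sum_comm, Finset.sum_congr rfl fun j _ => by
        rw [Finset.sum_congr rfl (g := fun y : K => A y r j * A y⁻¹ b a * w j) (fun y _ => by ring),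
          ← Finset.sum_mul, hA]]
      by_cases hr : r = a
      · simp [hr]
      · simp [hr, Pi.single_eq_of_ne hr]
    have : (c * w b) • (Pi.single a 1 : ι → F) ∈ W := hsum ▸ W.sum_mem fun y _ => W.smul_mem _ (hW y w hw)
    exact (W.smul_mem_iff (mul_ne_zero hc hb')).1 this
  rw [pi_eq_sum_univ' v]
  exact W.sum_mem fun a _ => W.smul_mem _ (key a)

/-- Two attached idempotents are orthogonal unless the representations are isomorphic. -/
theorem exists_intertwiner {B : K →* Matrix ι ι F} (hA : Schur A c) (hB : Schur B c) (hc : c ≠ 0)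
    (hne : idem B c σ * idem A c σ ≠ 0) :
    ∃ T : Matrix ι ι F, IsUnit T.det ∧ ∀ y, T * A y = B y * T := by
  by_contra hno
  push Not at hno
  have hzero : ∀ a r b d, ∑ y : K, B y⁻¹ b a * A y r d = 0 := by
    intro a r
    set T : Matrix ι ι F := ∑ y : K, B y⁻¹ * Matrix.single a r 1 * A y with hT
    have hTi : ∀ x, T * A x = B x * T := fun x => by
      rw [hT, Finset.sum_mul, Finset.mul_sum]
      refine Fintype.sum_equiv (Equiv.mulRight x) _ _ fun y => ?_
      show _ = B x * (B (y * x)⁻¹ * Matrix.single a r 1 * A (y * x))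
      rw [← mul_assoc (B x), ← mul_assoc (B x), ← map_mul, show x * (y * x)⁻¹ = y⁻¹ by group, map_mul, mul_assoc]
    have hT0 : T = 0 := by
      by_contra h0
      refine (hno T ?_).elim fun x hx => hx (hTi x)
      rw [← Matrix.isUnit_iff_isUnit_det, ← Matrix.mulVec_injective_iff_isUnit]
      rcases schur_irreducible hA hc (LinearMap.ker T.mulVecLin) (fun y w hw => by
        rw [LinearMap.mem_ker, Matrix.mulVecLin_apply] at hw ⊢
        rw [Matrix.mulVec_mulVec, hTi, ← Matrix.mulVec_mulVec, hw, Matrix.mulVec_zero]) with h | h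
      · exact LinearMap.ker_eq_bot.1 h
      · exact absurd (Matrix.ext fun i j => by
          have := LinearMap.mem_ker.1 (h ▸ Submodule.mem_top : Pi.single j 1 ∈ LinearMap.ker T.mulVecLin)
          simpa using congrFun this i) h0
    intro b d
    have := congrFun (congrFun hT0 b) d
    simp only [hT, Matrix.sum_apply, Matrix.zero_apply] at this
    rw [← this]
    refine Finset.sum_congr rfl fun y _ => ?_
    rw [mul_assoc, Matrix.mul_apply, Finset.sum_eq_single a (fun j _ hj => by simp [hj])
      (fun h => absurd (Finset.mem_univ a) h), Matrix.single_mul_apply_same, one_mul]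
  refine hne ?_
  rw [idem, Finset.sum_mul]
  refine Finset.sum_eq_zero fun a _ => ?_
  rw [idem, Finset.mul_sum]
  refine Finset.sum_eq_zero fun d _ => ?_
  conv_lhs => rw [unit, smul_mul_assoc, Finset.sum_mul]
  simp only [smul_mul_assoc, sigma_unit, Finset.smul_sum, smul_smul]
  rw [Finset.sum_comm]
  refine Finset.sum_eq_zero fun r _ => ?_
  rw [← Finset.sum_smul, ← Finset.mul_sum, hzero, mul_zero, zero_smul]

/-- Isomorphic representations have the same idempotent. -/
theorem idem_eq_of_intertwiner {B : K →* Matrix ι ι F} {T : Matrix ι ι F} (hT : IsUnit T.det)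
    (h : ∀ y, T * A y = B y * T) : idem B c σ = idem A c σ := by
  rw [idem_eq_trace, idem_eq_trace]
  congr 1
  refine Finset.sum_congr rfl fun y _ => ?_
  congr 1
  have e : B y⁻¹ = T * A y⁻¹ * T⁻¹ := by
    rw [h, mul_assoc, Matrix.mul_nonsing_inv _ hT, mul_one]
  rw [e, Matrix.trace_mul_comm, ← mul_assoc, Matrix.nonsing_inv_mul _ hT, one_mul]

end CfsgLib.FongSwan
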